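import Cfsg.Agent.H5.C5U.Ev1

/-! The overgroups of the normaliser of `5^{1+2}` in `SU₅(4)`. -/

set_option autoImplicit false
set_option linter.unusedSimpArgs false
set_option linter.unusedSectionVars false
set_option linter.unusedVariables false

namespace Cfsg.Agent.H5.C5U

open Matrix Cfsg.Agent.H5.T3 Cfsg.Agent.H8 Cfsg.Agent.H5.C5 Cfsg.Agent.H5.U

variable {F : Type*} [Field F] [StarRing F] [Fintype F] [NStar F] {M : Subgroup (GL (Fin 5) F)}

namespace Hu

variable {ω : F} (h : Hu ω M) (h2 : (2 : F) = 0) (hst : ∀ x : F, star x = x ^ 4)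
include h h2

theorem uni_l (g : CS M) : (rl h2 M g).1ᴴ * (rl h2 M g).1 = 1 := by
  have e1 := congrArg conjTranspose (cs_left h2 g.2.2)
  rw [conjTranspose_mul, conjTranspose_mul (Al F), Al_adj] at e1
  have e2 : At F = (rl h2 M g).1ᴴ * (rl h2 M g).1 * At F := by
    rw [Matrix.mul_assoc, rl_val, ← cs_right h2 g.2.2, ← Matrix.mul_assoc, ← e1, Matrix.mul_assoc,
      h.uni _ g.2.1, Matrix.mul_one]
  rw [← Matrix.mul_one (_ * _), ← AEl, ← Matrix.mul_assoc, ← e2]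

theorem siml : Sim (rl h2 M).range := by
  rintro _ ⟨g, rfl⟩
  exact ⟨1, by rw [one_smul]; exact h.uni_l h2 g⟩

theorem herm {H : M2 F} (a : R0 M H) : Hᴴ = H := by
  obtain ⟨g, hg, e⟩ := a
  have := h.uni g hg
  rw [e, conjTranspose_add, conjTranspose_one, conjTranspose_mul, conjTranspose_mul, Al_adj, At_adj,
    ← Matrix.mul_assoc, nH_mul h2, add_eq_left] at this
  have k := congrArg (fun X => Bl F * X * El F) this
  simp only [Matrix.mul_assoc, AEl, Matrix.mul_one, Matrix.mul_zero, Matrix.zero_mul] at k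
  rw [← Matrix.mul_assoc, BAl, Matrix.one_mul] at k
  ext i j
  have := congrFun (congrFun k i) j
  simp only [Matrix.add_apply, Matrix.zero_apply] at this
  linear_combination this - H i j * h2

theorem lu : ∃ g : CS M, (rl h2 M g).1 = !![ω, 0; 0, ω ^ 4] := by
  obtain ⟨g, hg⟩ := ex_CS h.hu (by mc)
  exact ⟨g, by rw [rl_val, hg]; mce⟩

theorem lδ : ∃ g : CS M, g.1.1 = δ ∧ (rl h2 M g).1 = !![0, 1; 1, 0] := by
  obtain ⟨g, hg⟩ := ex_CS h.hδ (by mc)
  exact ⟨g, hg, by rw [rl_val, hg]; mce <;> linear_combination -h2⟩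

theorem lφ : ∃ g : CS M, g.1.1 = Φ ω ∧
    (rl h2 M g).1 = !![ω + ω ^ 4, ω + ω ^ 4 + 1; ω + ω ^ 4 + 1, ω + ω ^ 4] := by
  obtain ⟨c, hc, hφ⟩ := h.hφ
  have c1 : c = 1 := by
    have : (c - 1) ^ 2 = 0 := by linear_combination hc + (1 - c - 2 * c ^ 2) * h2
    simpa [sub_eq_zero] using this
  rw [c1, one_smul] at hφ
  obtain ⟨g, hg⟩ := ex_CS hφ (by mc)
  have hm := h.om
  exact ⟨g, hg, by rw [rl_val, hg]; mce <;> grind⟩

theorem r0_one : R0 M 1 := h.hσ.congr (by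
  rw [Matrix.mul_one, AAt h2, ← add_assoc, ← two_smul F, h2, zero_smul, zero_add])

theorem th2 : (ω + ω ^ 4) ^ 2 = ω + ω ^ 4 + 1 := by linear_combination h.th - (ω + ω ^ 4) * h2

include hst

theorem real4 {s : F} (hs : star s = s) : s = 0 ∨ s = 1 ∨ s = ω + ω ^ 4 ∨ s = ω + ω ^ 4 + 1 := by
  have := h.th2 h2
  rw [hst] at hs
  generalize ω + ω ^ 4 = t at *
  have : s * (s - 1) * (s - t) * (s - (t + 1)) = 0 := by grind
  simpa only [mul_eq_zero, sub_eq_zero, or_assoc] using this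

theorem dec16 {x : F} (hx : x ≠ 0) : ∃ (k : ℕ) (s : F), star s = s ∧ s ≠ 0 ∧ x = ω ^ k * s := by
  have e : x ^ 15 = 1 := mul_left_cancel₀ hx (by
    have := star_star x
    rw [hst, hst] at this; linear_combination this)
  obtain ⟨k, hk⟩ := H9.C5B.root h.om (c := x ^ 6) (by linear_combination (x ^ 15 + 1) * e)
  exact ⟨k, x ^ 10, by rw [hst]; linear_combination (x ^ 25 + x ^ 10) * e, pow_ne_zero _ hx,
    by rw [← hk]; linear_combination (-x) * e⟩

theorem off_all {t : F} (t0 : t ≠ 0) (a : R0 M !![0, t; star t, 0]) (x : F) : R0 M !![0, x; star x, 0] := by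
  obtain ⟨u, u1⟩ := h.lu h2
  have h5 := om5 h.om
  have k1 : ∀ t, R0 M !![0, t; star t, 0] → R0 M !![0, ω ^ 2 * t; star (ω ^ 2 * t), 0] := fun t a =>
    (a.conj h2 u u1 (G' := !![ω ^ 4, 0; 0, ω]) (by mce <;> grind)).congr (by
      ext i j; fin_cases i <;> fin_cases j <;>
        simp [Matrix.mul_apply, vecMul, dotProduct, Fin.sum_univ_succ, h.st] <;> grind)
  have k2 : ∀ (n : ℕ) t, R0 M !![0, t; star t, 0] → R0 M !![0, ω ^ n * t; star (ω ^ n * t), 0] := by
    intro n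
    induction n with
    | zero => simp
    | succ n ih =>
      intro t a
      have := k1 _ (k1 _ (k1 _ (ih t a)))
      rwa [show ω ^ 2 * (ω ^ 2 * (ω ^ 2 * (ω ^ n * t))) = ω ^ (n + 1) * t by
        linear_combination (ω ^ (n + 1) * t) * h5] at this
  have k3 : ∀ s t, R0 M !![0, s; star s, 0] → R0 M !![0, t; star t, 0] → R0 M !![0, s + t; star (s + t), 0] :=
    fun s t a b => (a.add h2 b).congr (by simp)
  by_cases hx : x = 0
  · exact (k3 _ _ a a).congr (by rw [hx, ← two_mul, h2, zero_mul])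
  obtain ⟨k, s, s1, s0, e⟩ := h.dec16 h2 hst (div_ne_zero hx t0)
  rw [div_eq_iff t0, mul_assoc] at e
  rw [e]
  apply k2
  rcases h.real4 h2 hst s1 with rfl | rfl | rfl | rfl
  · exact absurd rfl s0
  · rwa [one_mul]
  · simpa only [pow_one, ← add_mul] using k3 _ _ (k2 1 t a) (k2 4 t a)
  · simpa only [pow_one, add_mul, one_mul] using k3 _ _ (k3 _ _ (k2 1 t a) (k2 4 t a)) a

theorem r0_scal (hn : NoRoot M) {H : M2 F} (a : R0 M H) : H = H 0 0 • 1 := by
  obtain ⟨u, u1⟩ := h.lu h2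
  obtain ⟨f, -, f1⟩ := h.lφ h2
  have h5 := om5 h.om
  have t2 := h.th2 h2
  have tr := h.thr
  generalize hθ : ω + ω ^ 4 = θ at f1 t2 tr
  have ff : (!![θ, θ + 1; θ + 1, θ] : M2 F) * !![θ, θ + 1; θ + 1, θ] = 1 := by mce <;> grind
  have key : ∀ H, R0 M H → H 0 1 = 0 := fun H a => by
    by_contra b0
    have b1 : H 1 0 = star (H 0 1) := (congrFun (congrFun (h.herm h2 a) 1) 0).symm
    have k := h.off_all h2 hst (t := (1 + ω ^ 2) * H 0 1) (mul_ne_zero (fun e => om_pow h.om h.five (k := 2)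
      (by norm_num) (by linear_combination e - h2)) b0) ((a.add h2 (a.conj h2 u u1 (G' := !![ω ^ 4, 0; 0, ω])
        (by mce <;> grind))).congr (by
      ext i j; fin_cases i <;> fin_cases j <;>
        simp [Matrix.mul_apply, vecMul, dotProduct, Fin.sum_univ_succ, h.st, b1] <;> grind))
    refine hn ![0, 1, 1, 1, 1] (fun e => by simpa using congrFun e 1) (by
      simp [dotProduct, Fin.sum_univ_succ]; linear_combination 2 * h2) fun c hc => ?_
    have c1 : star c = c := by linear_combination hc - c * h2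
    obtain ⟨t, ht⟩ := exists_tr c1
    refine InM.congr ((((k t).conj h2 f f1 ff).add h2 (k ((θ + 1) * t + θ * star t + c))).congr
      (K := !![c, c; c, c]) ?_) ?_
    · ext i j; fin_cases i <;> fin_cases j <;>
        simp [Matrix.mul_apply, vecMul, dotProduct, Fin.sum_univ_succ, tr, c1] <;> grind
    · have ev : vecMulVec (![0, 1, 1, 1, 1] : Fin 5 → F) (star ![0, 1, 1, 1, 1]) =
          !![0,0,0,0,0; 0,1,1,1,1; 0,1,1,1,1; 0,1,1,1,1; 0,1,1,1,1] := by
        ext i j; rw [vecMulVec_apply, Pi.star_apply]; fin_cases i <;> fin_cases j <;> simp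
      rw [ev]; mce
  have b0 := key H a
  have b1 : H 1 0 = 0 := by rw [← congrFun (congrFun (h.herm h2 a) 1) 0, conjTranspose_apply, b0, star_zero]
  have b2 := key _ (a.conj h2 f f1 ff)
  simp [Matrix.mul_apply, vecMul, dotProduct, Fin.sum_univ_succ, b0, b1] at b2
  ext i j; fin_cases i <;> fin_cases j <;> simp [b0, b1]
  grind

theorem not_th (hn : NoRoot M) : ¬ R0 M ((ω + ω ^ 4) • 1) := by
  intro a
  have h5 := om5 h.om
  have hm := h.om
  have t2 := h.th2 h2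
  have k : ∀ s : F, star s = s → ∃ z : HH M, r0 M z = 1 ∧ (r1 M z).1 = !![1 + s, s; s, 1 + s] ∧
      (r2 M z).1 = !![1 + s, s; s, 1 + s] := fun s hs => by
    have : R0 M (s • 1) := by
      rcases h.real4 h2 hst hs with rfl | rfl | rfl | rfl
      · exact (a.add h2 a).congr (by rw [← add_smul, ← two_mul, h2, zero_mul])
      · exact (h.r0_one h2).congr (by simp)
      · exact a
      · exact (a.add h2 (h.r0_one h2)).congr (by simp [add_smul])
    obtain ⟨z, hz⟩ := mem_HH (X := !![1,0,0,0,0; 0,1+s,0,0,s; 0,0,1+s,s,0; 0,0,s,1+s,0; 0,s,0,0,1+s])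
      (InM.congr this (by mce)) (by mc) (by mc) (by mc)
    refine ⟨z, Units.ext ?_, ?_, ?_⟩ <;> simp only [r0, r1, r2, rs'_val, hz] <;> mc
  obtain ⟨r, q0, q1, q2⟩ := h.exρ
  have k2 : SUin (r2 M).range := su_of_z h2 (α := ω ^ 2) (β := ω ^ 3) (by simp [h.st]; grind)
    (by simp [h.st]; grind) (fun e => h.th0 (by grind)) (by simp [h.st]; grind) ⟨_, ⟨r, rfl⟩, q2⟩
    fun s hs => let ⟨z, _, _, e⟩ := k s hs; ⟨_, ⟨z, rfl⟩, e⟩
  obtain ⟨z, z0, z1, z2⟩ := k _ h.thr
  obtain ⟨c, hc⟩ := h.fin2 hn k2 ((z * r) ^ 3) (by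
    rw [map_pow, map_mul, z0, show r0 M r = 1 from Units.ext q0]; simp) (Units.ext (by
    rw [map_pow, map_mul, Units.val_pow_eq_pow_val, Units.val_mul, z1, q1]
    simp only [pow_succ (_ * _ : M2 F), pow_zero]
    mce <;> grind))
  rw [map_pow, map_mul, Units.val_pow_eq_pow_val, Units.val_mul, z2, q2] at hc
  simp only [pow_succ (_ * _ : M2 F), pow_zero] at hc
  have := congrFun (congrFun hc 0) 1
  simp [Matrix.mul_apply, vecMul, dotProduct, Fin.sum_univ_succ] at this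
  exact h.th0 (by grind)

theorem r0_cases (hn : NoRoot M) {H : M2 F} (a : R0 M H) : H = 0 ∨ H = 1 := by
  have e := h.r0_scal h2 hst hn a
  have hs : star (H 0 0) = H 0 0 := congrFun (congrFun (h.herm h2 a) 0) 0
  rcases h.real4 h2 hst hs with k | k | k | k <;> rw [k] at e
  · exact .inl (by simpa using e)
  · exact .inr (by simpa using e)
  · exact absurd (a.congr e) (h.not_th h2 hst hn)
  · refine absurd (((a.congr e).add h2 (h.r0_one h2)).congr ?_) (h.not_th h2 hst hn)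
    rw [add_smul, one_smul, add_assoc, ← two_smul F (1 : M2 F), h2, zero_smul, add_zero]

theorem ker_l (hn : NoRoot M) (g : CS M) (hg : (rl h2 M g).1 = 1) : g.1.1 = 1 ∨ g.1.1 = σ := by
  have e1 := cs_left h2 g.2.2
  have e2 := cs_right h2 g.2.2
  rw [← rl_val h2, hg] at e1 e2
  have e := eq_Gk h2 (e1.trans (Matrix.mul_one _)) (e2.trans (Matrix.one_mul _))
  generalize g.1.1 0 0 = z, g.1.1 1 0 = x₁, g.1.1 2 0 = x₂, g.1.1 0 1 = y₁, g.1.1 0 2 = y₂,
    g.1.1 4 1 = a, g.1.1 1 2 = b, g.1.1 2 1 = c, g.1.1 3 2 = d at e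
  have k1 := h.det _ g.2.1
  have k2 := h.uni _ g.2.1
  rw [e] at k1 k2
  rw [det_Gk h2] at k1
  subst k1
  obtain ⟨rfl, rfl⟩ := Gk_uni h2 k2
  have k3 : R0 M _ := ((InM.of g.2.1).mul (InM.of g.2.1)).congr (by rw [e, Gk_sq h2])
  have k4 := h.r0_scal h2 hst hn k3
  have a1 := congrFun (congrFun k4 0) 1
  have a2 := congrFun (congrFun k4 1) 1
  simp at a1 a2
  have : x₁ = 0 ∧ x₂ = 0 := by
    rcases a1 with rfl | rfl
    · simpa using a2
    · simpa using a2.symm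
  obtain ⟨rfl, rfl⟩ := this
  rw [star_zero, Gk_zero] at e
  rcases h.r0_cases h2 hst hn ((InM.of g.2.1).congr e) with k | k <;> rw [k] at e
  · exact .inl (by simpa using e)
  · refine .inr ?_
    rw [e, Matrix.mul_one, AAt h2, ← add_assoc, ← two_smul F, h2, zero_smul, zero_add]

theorem sq_of (hn : NoRoot M) (c w : CS M) (e : (rl h2 M c).1 = (rl h2 M w).1) (hw : w.1.1 * w.1.1 = σ) :
    c.1.1 * c.1.1 = σ := by
  have k := h.ker_l h2 hst hn (c * w⁻¹) (by rw [map_mul, map_inv, Units.ext e, mul_inv_cancel]; rfl)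
  have e1 : c.1.1 = (c * w⁻¹).1.1 * w.1.1 := congrArg (fun x : CS M => x.1.1) (show c = c * w⁻¹ * w by group)
  rw [e1]
  rcases k with k | k <;> rw [k]
  · simpa using hw
  · rw [mul_assoc, ← mul_assoc w.1.1, show w.1.1 * σ = σ * w.1.1 from w.2.2, mul_assoc, hw, σσ, mul_one]

theorem lz (s : F) (hs : star s = s) (s0 : s ≠ 0) :
    ∃ w : CS M, (rl h2 M w).1 = !![1 + s, s; s, 1 + s] ∧ w.1.1 * w.1.1 = σ := by
  obtain ⟨d, d0, d1⟩ := h.lδ h2
  obtain ⟨f, f0, f1⟩ := h.lφ h2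
  have hm := h.om
  have f2 : Φ ω * Φ ω = (σ : M5 F) := by
    rw [H9.C5B.ΦΦ hm, δδ, show (5 : F) = 1 by linear_combination 2 * h2, one_smul]
  rcases h.real4 h2 hst hs with rfl | rfl | rfl | rfl
  · exact absurd rfl s0
  · exact ⟨d, by rw [d1]; mce <;> grind, by rw [d0, δδ]⟩
  · refine ⟨d * f, by rw [map_mul, Units.val_mul, d1, f1]; mce <;> grind, ?_⟩
    show d.1.1 * f.1.1 * (d.1.1 * f.1.1) = _
    have : (δ * Φ ω * δ : M5 F) = Φ ω := by mce <;> grind
    rw [d0, f0, ← mul_assoc, this, f2]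
  · exact ⟨f, by rw [f1]; mce <;> grind, by rw [f0, f2]⟩

theorem inv_l (hn : NoRoot M) (c : CS M) (hc : c * c = 1) : (rl h2 M c).1 = 1 := by
  obtain ⟨u, u1⟩ := h.lu h2
  have h5 := om5 h.om
  have shape : ∀ c : CS M, c * c = 1 → ∃ a b : F, (rl h2 M c).1 = !![a, b; star b, a] ∧
      a * a + b * star b = 1 := fun c hc => by
    have k3 : (rl h2 M c).1 * (rl h2 M c).1 = 1 := by rw [← Units.val_mul, ← map_mul, hc, map_one]; rfl
    have hA : (rl h2 M c).1ᴴ = (rl h2 M c).1 := by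
      rw [← Matrix.mul_one (rl h2 M c).1ᴴ, ← k3, ← Matrix.mul_assoc, h.uni_l h2 c, Matrix.one_mul]
    have b1 := congrFun (congrFun hA 1) 0
    have a00 := congrFun (congrFun k3 0) 0
    have a11 := congrFun (congrFun k3 1) 1
    rw [conjTranspose_apply] at b1
    generalize (rl h2 M c).1 = A at *
    simp [Matrix.mul_apply, Fin.sum_univ_succ] at a00 a11
    have : (A 1 1 - A 0 0) ^ 2 = 0 := by grind
    refine ⟨A 0 0, A 0 1, ?_, by rw [b1]; exact a00⟩
    ext i j; fin_cases i <;> fin_cases j <;> simp [b1]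
    simpa [sub_eq_zero] using this
  have step : ∀ n : ℕ, ∃ c' : CS M, c' * c' = 1 ∧ (rl h2 M c').1 0 1 = ω ^ (2 * n) * (rl h2 M c).1 0 1 := by
    intro n
    induction n with
    | zero => exact ⟨c, hc, by simp⟩
    | succ n ih =>
      obtain ⟨c', k1, k2⟩ := ih
      refine ⟨u * c' * u⁻¹, by rw [conj_mul, k1]; simp, ?_⟩
      rw [map_mul, map_mul, map_inv, Units.val_mul, Units.val_mul, Units.inv_eq_of_mul_eq_one_right
        (u := rl h2 M u) (a := !![ω ^ 4, 0; 0, ω]) (by rw [u1]; mce <;> grind), u1]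
      simp [Matrix.mul_apply, vecMul, dotProduct, Fin.sum_univ_succ, k2]
      ring
  obtain ⟨a, b, e1, e2⟩ := shape c hc
  by_cases b0 : b = 0
  · have : (a - 1) ^ 2 = 0 := by rw [b0] at e2; grind
    rw [e1, b0, show a = 1 by simpa [sub_eq_zero] using this]; mce
  exfalso
  obtain ⟨k, s, s1, s0, e⟩ := h.dec16 h2 hst b0
  obtain ⟨c', k1, k2⟩ := step (2 * k)
  obtain ⟨a', b', e3, e4⟩ := shape c' k1
  rw [e1, e3] at k2
  obtain rfl : b' = s := by
    simp at k2
    rw [k2, e, ← mul_assoc, ← pow_add, show 2 * (2 * k) + k = 5 * k by ring, pow_mul, h5]; simp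
  obtain ⟨w, w1, w2⟩ := h.lz h2 hst b' s1 s0
  have : (a' - (1 + b')) ^ 2 = 0 := by rw [s1] at e4; grind
  have := h.sq_of h2 hst hn c' w (by
    rw [e3, w1, s1, show a' = 1 + b' by simpa [sub_eq_zero] using this]) w2
  rw [show c'.1.1 * c'.1.1 = 1 from congrArg (fun x : CS M => x.1.1) k1] at this
  simpa [σ] using congrFun (congrFun this 1) 1

theorem even_main (hn : NoRoot M) : Concl ω M := by
  have h5 := om5 h.om
  refine h.endgame (fun c hc e1 e2 => h.ker_l h2 hst hn ⟨c, hc, e1⟩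
    (h.inv_l h2 hst hn _ (Subtype.ext (Units.ext e2)))) fun O hO ho c hc e => ?_
  let ι : CS M →* M := Subgroup.inclusion inf_le_left
  let c' : CS M := ⟨c.1, c.2, e⟩
  obtain ⟨u, u1⟩ := h.lu h2
  have k : SUin (rl h2 M).range := su_of_z h2 (α := ω) (β := ω ^ 4) (by simp [h.st]; grind)
    (by simp [h.st]; grind) h.th0 (by simpa using h.thr) ⟨_, ⟨u, rfl⟩, u1⟩ fun s hs => by
      by_cases s0 : s = 0
      · exact ⟨1, one_mem _, by rw [s0]; mce⟩
      · obtain ⟨w, w1, -⟩ := h.lz h2 hst s hs s0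
        exact ⟨_, ⟨w, rfl⟩, w1⟩
  obtain ⟨a, ha⟩ : H7.IsScal (rl h2 M c').1 := by
    by_contra hs
    have hJ := h.normal (J := (O.comap ι).map (rl h2 M)) ((h.siml h2).mono (Subgroup.map_le_range _ _)) (by
      rintro G G' _ hu hG hG' ⟨_, ⟨z, z0, rfl⟩, rfl⟩
      obtain ⟨_, ⟨w, rfl⟩, e⟩ := k G hu hG
      refine ⟨_, ⟨w * z * w⁻¹, (hO.comap ι).conj_mem z z0 w, rfl⟩, ?_⟩
      rw [map_mul, map_mul, map_inv, Units.val_mul, Units.val_mul, e,
        Units.inv_eq_of_mul_eq_one_right (e ▸ hG')]) (InM.of ⟨c', hc, rfl⟩) hs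
    obtain ⟨d, d0, d1⟩ := h.lδ h2
    obtain ⟨_, ⟨g, hg, rfl⟩, eg⟩ := hJ !![0, 1; 1, 0] (by mce) (by
      rw [det_fin_two_of]; linear_combination -h2)
    have k1 := h.sq_of h2 hst hn g d (eg.trans d1.symm) (by rw [d0, δδ])
    have k2 : ι g * ι g = 1 := odd_no ho (mul_mem hg hg) (Subtype.ext (Units.ext (by
      show g.1.1 * g.1.1 * (g.1.1 * g.1.1) = 1
      rw [k1, σσ])))
    rw [show g.1.1 * g.1.1 = 1 from congrArg (fun x : M => x.1.1) k2] at k1
    simpa [σ] using congrFun (congrFun k1 1) 1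
  have a5 : a ^ 5 = 1 := by
    have := congrFun (congrFun (h.uni_l h2 c') 0) 0
    rw [ha] at this
    simp [hst] at this
    linear_combination this
  obtain ⟨n, rfl⟩ := H9.C5B.root h.om a5
  have om1 : InM M (ω • 1) := (((h.hρ.mul h.hτ).mul (h.hρ.pow 4)).mul (h.hτ.pow 4)).congr (by
    rw [H9.C5B.ρτ h5, smul_mul_assoc, smul_mul_assoc, mul_assoc τ, ← pow_succ', H9.C5B.ρ5 h5, mul_one,
      ← pow_succ', H9.C5B.τ5])
  obtain ⟨w, hw⟩ := ex_CS (X := ω ^ n • 1) ((om1.pow n).congr (by simp [_root_.smul_pow])) (by simp)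
  have k1 := h.ker_l h2 hst hn (w⁻¹ * c') (by
    rw [map_mul, map_inv, Units.val_mul, Units.inv_mul_eq_iff_eq_mul, ha, rl_val, hw]; simp [BAl])
  have e1 : c.1.1 = w.1.1 * (w⁻¹ * c').1.1 := congrArg (fun x : CS M => x.1.1) (show c' = w * (w⁻¹ * c') by group)
  refine ⟨_, a5, k1.imp (fun k => ?_) fun k => ?_⟩ <;> rw [e1, k, hw] <;> simp

end Hu

end Cfsg.Agent.H5.C5U
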