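import Cfsg.Agent.H5.C5U.T
import Cfsg.Agent.H4.Th4

/-! The centraliser of `σ` (odd characteristic): it acts faithfully on the `-1`-eigenspace. -/

set_option autoImplicit false
set_option linter.unusedSimpArgs false
set_option linter.unusedSectionVars false
set_option linter.unusedVariables false

namespace Cfsg.Agent.H5.C5U

open Matrix Cfsg.Agent.H5.T3 Cfsg.Agent.H8 Cfsg.Agent.H5.C5 Cfsg.Agent.H5.U

variable {F : Type*} [Field F] [StarRing F]

theorem gram_p : (Ap F)ᴴ * Ap F = !![1, 0, 0; 0, 2, 0; 0, 0, 2] := by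
  ext i j; fin_cases i <;> fin_cases j <;> simp [Ap, Matrix.mul_apply, Fin.sum_univ_succ] <;> norm_num

theorem gram_m : (Am F)ᴴ * Am F = (2 : F) • 1 := by
  ext i j; fin_cases i <;> fin_cases j <;> simp [Am, Matrix.mul_apply, Fin.sum_univ_succ] <;> norm_num

theorem S2_adj (g : M2 F) :
    (S2 g)ᴴ * !![1, 0, 0; 0, 2, 0; 0, 0, 2] = !![1, 0, 0; 0, 2, 0; 0, 0, 2] * S2 gᴴ := by
  ext i j; fin_cases i <;> fin_cases j <;> simp [S2, Matrix.mul_apply, Fin.sum_univ_succ] <;> ring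

theorem sim_of_S2 (h2 : (2 : F) ≠ 0) {g : M2 F} {c : F}
    (h : (c • S2 g)ᴴ * ((Ap F)ᴴ * Ap F) * (c • S2 g) = (Ap F)ᴴ * Ap F) : ∃ l : F, gᴴ * g = l • 1 := by
  rw [gram_p, conjTranspose_smul, smul_mul_assoc, smul_mul_assoc, mul_smul_comm, S2_adj, Matrix.mul_assoc,
    ← S2_mul] at h
  generalize gᴴ * g = H at h
  have a00 := congrFun (congrFun h 0) 0
  have a11 := congrFun (congrFun h 1) 1
  have a12 := congrFun (congrFun h 1) 2
  have a21 := congrFun (congrFun h 2) 1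
  simp [S2, Matrix.mul_apply, Fin.sum_univ_succ, h2] at a00 a11 a12 a21
  have c0 : c ≠ 0 := by rintro rfl; simp at a00
  simp only [c0, false_or] at a12 a21
  refine ⟨H 0 0, ?_⟩
  ext i j; fin_cases i <;> fin_cases j <;> simp [a12, a21]
  rw [a12] at a00
  apply mul_left_cancel₀ h2
  linear_combination H 0 0 * 2 * a00 - H 1 1 * a11

variable [Fintype F] [NStar F] {M : Subgroup (GL (Fin 5) F)}

namespace Hu

variable {ω : F} (h : Hu ω M) (h2 : (2 : F) ≠ 0)
include h h2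

theorem exu : ∃ g : CC M, g.1.1 = uu ω ∧ (rp h2 M g).1 = !![1, 0, 0; 0, ω, 0; 0, 0, ω ^ 4] ∧
    (rm h2 M g).1 = !![ω, 0; 0, ω ^ 4] := by
  obtain ⟨g, hg⟩ := ex_CC h2 h.hu (by mc)
  refine ⟨g, hg, ?_, ?_⟩ <;> simp only [rp, rm, rs'_val, hg] <;> mcc <;> field_simp <;> ring

theorem exδ : ∃ g : CC M, g.1.1 = δ ∧ (rp h2 M g).1 = !![-1, 0, 0; 0, 0, -1; 0, -1, 0] ∧
    (rm h2 M g).1 = !![0, 1; -1, 0] := by
  obtain ⟨g, hg⟩ := ex_CC h2 h.hδ (by mc)
  refine ⟨g, hg, ?_, ?_⟩ <;> simp only [rp, rm, rs'_val, hg] <;> mcc <;> field_simp <;> ring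

theorem exσ : ∃ g : CC M, g.1.1 = σ ∧ (rp h2 M g).1 = 1 ∧ (rm h2 M g).1 = -1 := by
  obtain ⟨g, hg⟩ := ex_CC h2 h.hσ rfl
  refine ⟨g, hg, ?_, ?_⟩ <;> simp only [rp, rm, rs'_val, hg] <;> mcc <;> field_simp <;> ring

theorem exφ : ∃ g : CC M, ∃ c : F, 5 * c ^ 2 = 1 ∧ (rp h2 M g).1 =
    c • !![1, 2, 2; 1, ω + ω ^ 4, ω ^ 2 + ω ^ 3; 1, ω ^ 2 + ω ^ 3, ω + ω ^ 4] ∧
    (rm h2 M g).1 = c • !![ω - ω ^ 4, ω ^ 2 - ω ^ 3; ω ^ 2 - ω ^ 3, -(ω - ω ^ 4)] := by
  obtain ⟨c, hc, hφ⟩ := h.hφ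
  obtain ⟨g, hg⟩ := ex_CC h2 hφ (by mc)
  refine ⟨g, c, hc, ?_, ?_⟩ <;> simp only [rp, rm, rs'_val, hg] <;> mcc <;> field_simp <;> ring

theorem TD (hn : NoRoot M) (g : CC M) {a b c d e : F}
    (e1 : (rp h2 M g).1 = !![a, 0, 0; 0, b, 0; 0, 0, c]) (e2 : (rm h2 M g).1 = !![d, 0; 0, e]) :
    (b = d ∨ b = -d) ∧ (c = e ∨ c = -e) ∧ a * b * c * d * e = 1 := by
  have e0 : g.1.1 = !![a,0,0,0,0; 0,(b+d)/2,0,0,(b-d)/2; 0,0,(c+e)/2,(c-e)/2,0;
      0,0,(c-e)/2,(c+e)/2,0; 0,(b-d)/2,0,0,(b+d)/2] := by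
    rw [CC_dec h2, e1, e2]; mcc <;> ring
  obtain ⟨x, hx⟩ := mem_HH ((InM.of g.2.1).congr e0) (by mc) (by mc) (by mc)
  refine ⟨?_, ?_, ?_⟩
  · rcases h.T1 h2 hn x (a := (b + d) / 2) (b := (b - d) / 2) (by rw [r1, rs'_val, hx]; mc) with k | k
    · right; field_simp at k; linear_combination k
    · left; field_simp at k; linear_combination k
  · rcases h.T2 h2 hn x (a := (c + e) / 2) (b := (c - e) / 2) (by rw [r2, rs'_val, hx]; mc) with k | k
    · right; field_simp at k; linear_combination k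
    · left; field_simp at k; linear_combination k
  · let P : M5 F := !![1,0,0,0,0; 0,1,0,1,0; 0,0,1,0,1; 0,0,1,0,-1; 0,1,0,-1,0]
    let Q : M5 F := !![1,0,0,0,0; 0,2⁻¹,0,0,2⁻¹; 0,0,2⁻¹,2⁻¹,0; 0,2⁻¹,0,0,-2⁻¹; 0,0,2⁻¹,-2⁻¹,0]
    have k1 : Q * P = 1 := by
      ext i j; fin_cases i <;> fin_cases j <;> simp [P, Q, Matrix.mul_apply, Fin.sum_univ_succ] <;>
        exact half h2
    have k2 : g.1.1 * P = P * diagonal ![a, b, c, d, e] := by
      rw [e0]
      ext i j; fin_cases i <;> fin_cases j <;> simp [P, Matrix.mul_apply, Fin.sum_univ_succ] <;>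
        field_simp <;> ring
    have k3 := congrArg Matrix.det k2
    have k4 := congrArg Matrix.det k1
    rw [det_mul, det_mul, h.det _ g.2.1, det_diagonal, Fin.prod_univ_five] at k3
    rw [det_mul, det_one] at k4
    simp at k3
    linear_combination (-Q.det) * k3 - (a * b * c * d * e - 1) * k4

theorem no_x0 (hn : NoRoot M) (x : CC M) (e1 : (rp h2 M x).1 = !![1, 0, 0; 0, -1, 0; 0, 0, -1])
    (e2 : rm h2 M x = 1) : False := by
  have w0 := om0 h.om
  have h5 := om5 h.om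
  have hm := h.om
  obtain ⟨u, -, u1, -⟩ := h.exu h2
  obtain ⟨s, -, s1, -⟩ := h.exδ h2
  obtain ⟨f, c, hc, f1, -⟩ := h.exφ h2
  have a2 : (ω + ω ^ 4) ^ 2 + (ω + ω ^ 4) - 1 = 0 := by
    linear_combination hm + (ω ^ 3 + 2) * h5
  rw [show ω ^ 2 + ω ^ 3 = -1 - (ω + ω ^ 4) by linear_combination hm] at f1
  generalize ω + ω ^ 4 = α at a2 f1
  have al0 : α ≠ 0 := fun e => by rw [e] at a2; simp at a2
  have ka : InM (PB (rp h2 M).range) !![ω ^ 3, 0; 0, ω ^ 2] :=
    inM_PB (c := 1) (by simp [det_fin_two, w0]) ⟨_, ⟨u, rfl⟩, by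
      rw [u1]; ext i j; fin_cases i <;> fin_cases j <;> simp [S2]
      · linear_combination -h5
      · linear_combination (-ω) * h5
      · ring⟩
  obtain ⟨s', ks, es⟩ : InM (PB (rp h2 M).range) !![0, 1; -1, 0] :=
    inM_PB (c := 1) (by simp [det_fin_two]) ⟨_, ⟨s, rfl⟩, by
      rw [s1]; ext i j; fin_cases i <;> fin_cases j <;> simp [S2]⟩
  obtain ⟨f', kf, ef⟩ : InM (PB (rp h2 M).range) !![α, 1; 1, -α] :=
    inM_PB (c := c * (1 + α)) (by
      rw [det_fin_two_of]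
      intro e
      apply h.five
      linear_combination (-α - 2) * a2 - (α + 3) * e) ⟨_, ⟨f, rfl⟩, by
      rw [f1]; ext i j; fin_cases i <;> fin_cases j <;> simp [S2] <;> grind⟩
  have kx : InM (PB ((rm h2 M).ker.map (rp h2 M))) !![1, 0; 0, -1] :=
    inM_PB (c := -1) (by simp [det_fin_two]) ⟨_, ⟨x, e2, rfl⟩, by
      rw [e1]; ext i j; fin_cases i <;> fin_cases j <;> simp [S2]⟩
  have n23 : ω ^ 3 ≠ ω ^ 2 := om_ne hm h.five (by norm_num)
  have hS : Sim (PB (rp h2 M).range) := by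
    rintro g ⟨c, _, ⟨w, rfl⟩, e⟩
    have := res_uni (BAp h2) (CCp w.2) (h.uni _ w.2.1)
    rw [show Bp F * w.1.1 * Ap F = _ from e] at this
    exact sim_of_S2 h2 this
  rcases dick hS (pow_ne_zero 3 w0) (pow_ne_zero 2 w0)
    (by rw [← pow_mul, ← pow_mul, mul_comm, pow_mul, mul_comm 2, pow_mul, h5, one_pow, one_pow]) n23 ka
    (fun k hk => h.gen k (by
      rw [← pow_add, h5, div_one] at hk
      have := k.sub_mem (k.sub_mem hk k.one_mem) k.one_mem
      rwa [show (ω ^ 3 + ω ^ 2) ^ 2 - 1 - 1 = ω + ω ^ 4 by linear_combination (ω + 2) * h5] at this))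
    ⟨s', ks, by simp [es]⟩ ⟨f', kf, by simp [ef, al0]⟩ with k | k
  · have hJ := h.normal (J := PB ((rm h2 M).ker.map (rp h2 M)))
      (hS.mono fun g ⟨c, hc⟩ => ⟨c, hc.mono (Subgroup.map_le_range _ _)⟩) (by
        rintro G G' _ hu hG hG' ⟨y, ⟨d, _, ⟨z, z0, rfl⟩, hz⟩, rfl⟩
        obtain ⟨g, ⟨d', _, ⟨w, rfl⟩, hw⟩, rfl⟩ := k G hu hG
        have hd' : d' ≠ 0 := InM.ne ⟨_, (⊤ : Subgroup _).mem_carrier.1 trivial, hw⟩
        refine ⟨g * y * g⁻¹, ⟨d, _, ⟨w * z * w⁻¹, (MonoidHom.normal_ker _).conj_mem z z0 w, rfl⟩, ?_⟩, ?_⟩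
        · rw [map_mul, map_mul, map_inv, Units.val_mul, Units.mul_inv_eq_iff_eq_mul, Units.val_mul,
            hw, hz, smul_mul_smul_comm, smul_mul_smul_comm, ← S2_mul, ← S2_mul, ← Units.val_mul,
            ← Units.val_mul, mul_comm d, inv_mul_cancel_right]
        · rw [Units.val_mul, Units.val_mul, Units.inv_eq_of_mul_eq_one_right hG']) kx (by
        rintro ⟨c, hc⟩
        have a := congrFun (congrFun hc 0) 0
        have b := congrFun (congrFun hc 1) 1
        simp at a b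
        exact h2 (by linear_combination a - b))
    obtain ⟨_, ⟨d, _, ⟨z, z0, rfl⟩, hz⟩, e⟩ := hJ !![ω ^ 3, 0; 0, ω ^ 2] (by
      ext i j; fin_cases i <;> fin_cases j <;> simp [Matrix.mul_apply, Fin.sum_univ_succ, h.st]
      · linear_combination (ω ^ 10 + ω ^ 5 + 1) * h5
      · linear_combination (ω ^ 5 + 1) * h5) (by
      rw [det_fin_two_of]; linear_combination h5)
    obtain ⟨k1, k2, -⟩ := h.TD h2 hn z (a := d) (b := d * ω) (c := d * ω ^ 4) (d := 1) (e := 1) (by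
      rw [hz, e]; ext i j; fin_cases i <;> fin_cases j <;> simp [S2] <;> grind) (by
      rw [show rm h2 M z = 1 from z0]; ext i j; fin_cases i <;> fin_cases j <;> simp)
    have k3 : (d * ω) ^ 2 = 1 := by rcases k1 with k | k <;> rw [k] <;> ring
    have k4 : (d * ω ^ 4) ^ 2 = 1 := by rcases k2 with k | k <;> rw [k] <;> ring
    exact om_pow hm h.five (k := 6) (by norm_num) (by linear_combination k4 - ω ^ 6 * k3)
  · obtain ⟨x', ⟨d, hx'⟩, ex⟩ := kx
    obtain ⟨a', ka, ea⟩ := ka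
    refine k.not_comm (s := x') (x := a') ⟨d, hx'.mono (Subgroup.map_le_range _ _)⟩ ka ?_ ?_ ?_ ?_
    · rw [← map_mul, mk_eq_one_iff]; simp [ex, mul_apply, Fin.sum_univ_succ]
    · rw [Ne, mk_eq_one_iff]; simp [ex]
      intro e; exact h2 (by linear_combination e)
    · rw [← map_mul, Ne, mk_eq_one_iff]
      simp only [Units.val_mul, ea]
      rintro ⟨-, -, e⟩
      simp [mul_apply, Fin.sum_univ_succ] at e
      exact om_ne hm h.five (k := 6) (l := 4) (by norm_num) (by linear_combination e)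
    · have : a' * x' = x' * a' := by
        apply Units.ext
        rw [Units.val_mul, Units.val_mul, ea, ex]; mc
      rw [← map_mul ProjGenLinGroup.mk, ← map_mul ProjGenLinGroup.mk, this]

omit h2 in
theorem diag_of_u {X : M3 F}
    (e : X * !![1, 0, 0; 0, ω, 0; 0, 0, ω ^ 4] = !![1, 0, 0; 0, ω, 0; 0, 0, ω ^ 4] * X) :
    X = !![X 0 0, 0, 0; 0, X 1 1, 0; 0, 0, X 2 2] := by
  have n1 : ω - 1 ≠ 0 := sub_ne_zero.2 (by simpa using om_pow h.om h.five (k := 1) (by norm_num))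
  have n4 : ω ^ 4 - 1 ≠ 0 := sub_ne_zero.2 (om_pow h.om h.five (by norm_num))
  have n3 : ω ^ 4 - ω ≠ 0 := sub_ne_zero.2 (by simpa using om_ne h.om h.five (k := 4) (l := 1) (by norm_num))
  have a01 := congrFun (congrFun e 0) 1
  have a02 := congrFun (congrFun e 0) 2
  have a10 := congrFun (congrFun e 1) 0
  have a12 := congrFun (congrFun e 1) 2
  have a20 := congrFun (congrFun e 2) 0
  have a21 := congrFun (congrFun e 2) 1
  simp only [Matrix.mul_apply, Fin.sum_univ_three, of_apply, cons_val, mul_zero, zero_mul, add_zero,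
    zero_add, one_mul, mul_one] at a01 a02 a10 a12 a20 a21
  ext i j; fin_cases i <;> fin_cases j <;> simp
  · exact mul_left_cancel₀ n1 (by linear_combination a01)
  · exact mul_left_cancel₀ n4 (by linear_combination a02)
  · exact mul_left_cancel₀ n1 (by linear_combination -a10)
  · exact mul_left_cancel₀ n3 (by linear_combination a12)
  · exact mul_left_cancel₀ n4 (by linear_combination -a20)
  · exact mul_left_cancel₀ n3 (by linear_combination -a21)

theorem diag_triv (hn : NoRoot M) (x : CC M) {a b c : F}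
    (e1 : (rp h2 M x).1 = !![a, 0, 0; 0, b, 0; 0, 0, c]) (e2 : rm h2 M x = 1) : x = 1 := by
  obtain ⟨k1, k2, k3⟩ := h.TD h2 hn x e1 (d := 1) (e := 1) (by
    rw [e2]; ext i j; fin_cases i <;> fin_cases j <;> simp)
  obtain ⟨s, -, s1, -⟩ := h.exδ h2
  have e3 : (rp h2 M (s * x * s⁻¹ * x)).1 = !![a * a, 0, 0; 0, c * b, 0; 0, 0, b * c] := by
    rw [map_mul, map_mul, map_mul, map_inv, Units.val_mul, Units.val_mul, Units.val_mul,
      Units.inv_eq_of_mul_eq_one_right (a := !![-1, 0, 0; 0, 0, -1; 0, -1, 0]) (by rw [s1]; mc), s1, e1]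
    mc
  have e4 : rm h2 M (s * x * s⁻¹ * x) = 1 := by
    rw [map_mul, map_mul, map_mul, e2, map_inv]; simp
  rcases k1 with rfl | rfl <;> rcases k2 with rfl | rfl
  · refine CC_ext h2 (Units.ext ?_) (by rw [e2, map_one])
    rw [e1, map_one, show a = 1 by linear_combination k3]; mc
  · exact (h.no_x0 h2 hn _ (by rw [e3, show a = -1 by linear_combination -k3]; simp) e4).elim
  · exact (h.no_x0 h2 hn _ (by rw [e3, show a = -1 by linear_combination -k3]; simp) e4).elim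
  · exact (h.no_x0 h2 hn _ (by rw [e1, show a = 1 by linear_combination k3]) e2).elim

omit h2 in
theorem φp_sq {c : F} (hc : 5 * c ^ 2 = 1) :
    (c • !![1, 2, 2; 1, ω + ω ^ 4, ω ^ 2 + ω ^ 3; 1, ω ^ 2 + ω ^ 3, ω + ω ^ 4] : M3 F) *
      (c • !![1, 2, 2; 1, ω + ω ^ 4, ω ^ 2 + ω ^ 3; 1, ω ^ 2 + ω ^ 3, ω + ω ^ 4]) = 1 := by
  have hm := h.om
  ext i j; fin_cases i <;> fin_cases j <;> simp [Matrix.mul_apply, Fin.sum_univ_succ] <;> grind

theorem ker_triv (hn : NoRoot M) (x : CC M) (hx : rm h2 M x = 1) : x = 1 := by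
  set L := (rm h2 M).ker with hL
  obtain ⟨u, u0, u1, u2⟩ := h.exu h2
  obtain ⟨s, -, s1, -⟩ := h.exδ h2
  obtain ⟨f, c, hc, f1, -⟩ := h.exφ h2
  have h5 := om5 h.om
  let φ : Monoid.End L := (MulAut.conjNormal u : MulAut L).toMonoidHom
  have hφ : ∀ (n : ℕ) (y : L), ((φ^[n] y : L) : CC M) = u ^ n * y * (u ^ n)⁻¹ := by
    intro n
    induction n with
    | zero => simp
    | succ n ih =>
      intro y
      rw [Function.iterate_succ_apply']
      show u * (φ^[n] y : L) * u⁻¹ = _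
      rw [ih, pow_succ']; group
  have u5 : u ^ 5 = 1 := by
    apply Subtype.ext; apply Units.ext
    rw [SubmonoidClass.coe_pow, Units.val_pow_eq_pow_val, u0]
    have : (uu ω : M5 F) = diagonal ![1, ω, ω ^ 4, ω ^ 4, ω] := by mc
    have h45 : (ω ^ 4) ^ 5 = 1 := by rw [← pow_mul, mul_comm, pow_mul, h5, one_pow]
    rw [this, diagonal_pow]
    ext i j; fin_cases i <;> fin_cases j <;> simp [h5, h45]
  have hnil : Group.IsNilpotent L := H4.Th.fpf_nilpotent (φ := φ) Nat.prime_five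
    (funext fun y => Subtype.ext (by rw [hφ, u5]; simp)) (by
      intro y hy
      have e : u * y * u⁻¹ = y := congrArg Subtype.val hy
      rw [mul_inv_eq_iff_eq_mul] at e
      have e' := congrArg (fun z => (rp h2 M z).1) e
      simp only [map_mul, Units.val_mul, u1] at e'
      exact Subtype.ext (h.diag_triv h2 hn y (h.diag_of_u e'.symm) y.2))
  by_contra hx1
  haveI : Nontrivial L := ⟨⟨x, hx⟩, 1, fun e => hx1 (congrArg Subtype.val e)⟩
  obtain ⟨⟨z, hz⟩, hz1⟩ := Subgroup.ne_bot_iff_exists_ne_one.1 (Group.IsNilpotent.center_ne_bot L)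
  let S : Set (M3 F) := {X | ∃ y ∈ Subgroup.center L, (rp h2 M y).1 = X}
  have inv : ∀ (w : CC M) (G G' : M3 F), (rp h2 M w).1 = G → G * G' = 1 →
      ∀ X ∈ Submodule.span F S, G * X * G' ∈ Submodule.span F S := by
    intro w G G' e1 e2 X hX
    induction hX using Submodule.span_induction with
    | mem X hX =>
      obtain ⟨y, hy, rfl⟩ := hX
      refine Submodule.subset_span ⟨MulAut.conjNormal w y, ?_, ?_⟩
      · exact (Subgroup.characteristic_iff_le_comap.1 inferInstance (MulAut.conjNormal w)) hy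
      · show (rp h2 M (w * y * w⁻¹)).1 = _
        rw [map_mul, map_mul, map_inv, Units.val_mul, Units.val_mul, e1,
          Units.inv_eq_of_mul_eq_one_right (e1 ▸ e2)]
    | zero => simp
    | add X Y _ _ a b => rw [mul_add, add_mul]; exact add_mem a b
    | smul c X _ a => rw [mul_smul_comm, smul_mul_assoc]; exact Submodule.smul_mem _ c a
  have := diag_of_comm h.om h.five h2 hc (Submodule.span F S) (by
      intro X hX Y hY
      induction hX, hY using Submodule.span_induction₂ with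
      | mem_mem X Y hX hY =>
        obtain ⟨a, ha, rfl⟩ := hX
        obtain ⟨b, hb, rfl⟩ := hY
        rw [← Units.val_mul, ← Units.val_mul, ← map_mul, ← map_mul, ← Subgroup.coe_mul,
          Subgroup.mem_center_iff.1 hb a, Subgroup.coe_mul]
      | zero_left => simp
      | zero_right => simp
      | add_left X Y Z _ _ _ a b => rw [add_mul, mul_add, a, b]
      | add_right X Y Z _ _ _ a b => rw [add_mul, mul_add, a, b]
      | smul_left c X Y _ _ a => rw [smul_mul_assoc, mul_smul_comm, a]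
      | smul_right c X Y _ _ a => rw [smul_mul_assoc, mul_smul_comm, a])
    (inv u _ _ u1 (by
      ext i j; fin_cases i <;> fin_cases j <;> simp [Matrix.mul_apply, Fin.sum_univ_succ] <;>
        linear_combination h5)) (inv s _ _ s1 (by mc)) (inv f _ _ f1 (h.φp_sq hc)) _
    (Submodule.subset_span ⟨z, hz, rfl⟩)
  exact hz1 (Subtype.ext (Subtype.ext (h.diag_triv h2 hn z this z.2)))

theorem rm_inj (hn : NoRoot M) : Function.Injective (rm h2 M) :=
  (injective_iff_map_eq_one _).2 (h.ker_triv h2 hn)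

end Hu

end Cfsg.Agent.H5.C5U
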