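import Cfsg.Agent.H5.C5U.T
import Cfsg.Agent.H5.C5.Grp

/-! The Brauer–Suzuki end-game. -/

set_option autoImplicit false
set_option linter.unusedSimpArgs false
set_option linter.unusedSectionVars false
set_option linter.unusedVariables false

namespace Cfsg.Agent.H5.C5U

open Matrix Cfsg.Agent.H5.T3 Cfsg.Agent.H8 Cfsg.Agent.H5.C5 Cfsg.Agent.H5.U

variable {F : Type*} [Field F] [StarRing F] [Fintype F] [NStar F] {M : Subgroup (GL (Fin 5) F)}

/-- the conjugates of `ρ` and `τ` commute with `ρ` and `τ` up to scalars -/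
def Concl (ω : F) (M : Subgroup (GL (Fin 5) F)) : Prop :=
  ∀ g ∈ M, ∀ X Y : M5 F, X = ρ ω ∨ X = τ → Y = ρ ω ∨ Y = τ →
    ∃ a : F, g.1 * X * (g⁻¹).1 * Y = a • (Y * (g.1 * X * (g⁻¹).1))

theorem odd_no {G : Type*} [Group G] [Finite G] {O : Subgroup G} (ho : Odd (Nat.card O)) {z : G}
    (hz : z ∈ O) (zz : z * z = 1) : z = 1 := by
  obtain ⟨k, hk⟩ := ho
  have : z ^ (2 * k + 1) = 1 := by
    rw [← hk]; exact congrArg Subtype.val (pow_card_eq_one' (x := (⟨z, hz⟩ : O)))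
  rwa [pow_succ, pow_mul, pow_two, zz, one_pow, one_mul] at this

theorem Hu.endgame {ω : F} (h : Hu ω M)
    (hinv : ∀ c ∈ M, c.1 * σ = σ * c.1 → c.1 * c.1 = 1 → c.1 = 1 ∨ c.1 = σ)
    (hO : ∀ O : Subgroup M, O.Normal → Odd (Nat.card O) → ∀ c ∈ O, c.1.1 * σ = σ * c.1.1 →
      ∃ a : F, a ^ 5 = 1 ∧ (c.1.1 = a • 1 ∨ c.1.1 = a • σ)) : Concl ω M := by
  obtain ⟨z0, hz0, ez⟩ := h.hσ
  let z : M := ⟨z0, hz0⟩
  have zz : z * z = 1 := Subtype.ext (Units.ext (by
    show z0.1 * z0.1 = 1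
    rw [ez, σσ]))
  have z1 : z ≠ 1 := fun e => by
    have := congrFun (congrFun (ez.symm.trans (congrArg (fun x : M => x.1.1) e)) 1) 1
    simp [σ] at this
  have zo : orderOf z = 2 := orderOf_eq_prime (by rw [pow_two, zz]) z1
  obtain ⟨O, hN, ho, hd⟩ := H4.BS.bs (uniq_inv z zo fun c hc c2 =>
    (hinv c.1 c.2 (ez ▸ congrArg (fun x : M => x.1.1) hc)
      (by rw [pow_two] at c2; exact congrArg (fun x : M => x.1.1) c2)).imp
      (fun e => Subtype.ext (Units.ext e)) fun e => Subtype.ext (Units.ext (e.trans ez.symm))) z zo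
  have ab := ab_mod O ho z zz ((Subgroup.center (GL (Fin 5) F)).subgroupOf M)
    (fun c hc => Subgroup.mem_center_iff.2 fun g =>
      Subtype.ext (Subgroup.mem_center_iff.1 (Subgroup.mem_subgroupOf.1 hc) g.1)) (fun c hc hcz => by
      obtain ⟨a, a5, ha | ha⟩ := hO O hN ho c hc (ez ▸ congrArg (fun x : M => x.1.1) hcz)
      · refine Subgroup.mem_center_iff.2 fun g => Units.ext ?_
        show g.1 * c.1.1 = c.1.1 * g.1
        rw [ha]; simp
      · have : c ^ 5 = z := Subtype.ext (Units.ext (by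
          show (c.1 ^ 5).1 = z0.1
          rw [Units.val_pow_eq_pow_val, ha, _root_.smul_pow, a5, one_smul, ez, pow_succ,
            show 4 = 2 * 2 from rfl, pow_mul, pow_two σ, σσ, one_pow, one_mul]))
        exact absurd (odd_no ho (this ▸ pow_mem hc 5) zz) z1)
  have h5 := om5 h.om
  have inO : ∀ X : M5 F, X = ρ ω ∨ X = τ → ∃ x ∈ O, x.1.1 = X := by
    have k : ∀ X : M5 F, InM M X → X * σ * X = σ → X ^ 5 = 1 → ∃ x ∈ O, x.1.1 = X := by
      rintro _ ⟨x, hx, rfl⟩ e1 e2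
      exact ⟨⟨x, hx⟩, mem_of_inv O z hd (by
        rw [mul_inv_eq_iff_eq_mul, mul_inv_eq_iff_eq_mul]
        exact Subtype.ext (Units.ext (by
          show z0.1 = x.1 * z0.1 * x.1
          rw [ez, e1]))) (Subtype.ext (Units.ext (by
          show (x ^ 5).1 = 1
          rw [Units.val_pow_eq_pow_val, e2]))), rfl⟩
    rintro X (rfl | rfl)
    · refine k _ h.hρ ?_ ?_
      · mcx <;> linear_combination h5
      · have : (ρ ω : M5 F) = diagonal ![1, ω, ω ^ 2, ω ^ 3, ω ^ 4] := by mc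
        have k : ∀ n, (ω ^ n) ^ 5 = 1 := fun n => by rw [← pow_mul, mul_comm, pow_mul, h5, one_pow]
        rw [this, diagonal_pow]
        ext i j; fin_cases i <;> fin_cases j <;> simp [h5, k]
    · exact k _ h.hτ (by mc) (by simp only [pow_succ, pow_zero]; mc)
  intro g hg X Y hX hY
  obtain ⟨x, hx, rfl⟩ := inO X hX
  obtain ⟨y, hy, rfl⟩ := inO Y hY
  obtain ⟨c, hc, e⟩ := ab _ (hN.conj_mem x hx ⟨g, hg⟩) y hy
  rw [Subgroup.mem_subgroupOf, GeneralLinearGroup.center_eq_range_scalar] at hc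
  obtain ⟨a, ha⟩ := hc
  refine ⟨a, ?_⟩
  have e' : g.1 * x.1.1 * (g⁻¹).1 * y.1.1 = c.1.1 * (y.1.1 * (g.1 * x.1.1 * (g⁻¹).1)) :=
    congrArg (fun x : M => x.1.1) e
  rw [e', ← ha]; simp [smul_eq_diagonal_mul]

end Cfsg.Agent.H5.C5U
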