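import Cfsg.Agent.H5.C5U.End
import Cfsg.Agent.H9.C5.Br

/-! The case `q = 4`: the centraliser of `σ` and its kernel on `[V, σ]`. -/

set_option autoImplicit false
set_option linter.unusedSimpArgs false
set_option linter.unusedSectionVars false
set_option linter.unusedVariables false

namespace Cfsg.Agent.H5.C5U

open Matrix Cfsg.Agent.H5.T3 Cfsg.Agent.H8 Cfsg.Agent.H5.C5 Cfsg.Agent.H5.U

variable {F : Type*} [Field F]

def Al (F : Type*) [Field F] : Matrix (Fin 5) (Fin 2) F := !![0,0; 1,0; 0,1; 0,1; 1,0]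
def At (F : Type*) [Field F] : Matrix (Fin 2) (Fin 5) F := !![0,1,0,0,1; 0,0,1,1,0]
def Bl (F : Type*) [Field F] : Matrix (Fin 2) (Fin 5) F := !![0,1,0,0,0; 0,0,1,0,0]
def El (F : Type*) [Field F] : Matrix (Fin 5) (Fin 2) F := !![0,0; 1,0; 0,1; 0,0; 0,0]

/-- entrywise computation, one goal for each entry -/
macro "mce" : tactic => `(tactic| (ext i j; fin_cases i <;> fin_cases j <;>
  simp [ρ, τ, τ', uu, σ, δ, δ', Φ, Al, At, Bl, El,
    Matrix.mul_apply, Matrix.vecMul, dotProduct, Fin.sum_univ_succ]))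

theorem BAl : (Bl F * Al F : M2 F) = 1 := by mce
theorem AEl : (At F * El F : M2 F) = 1 := by mce
theorem AAt (h2 : (2 : F) = 0) : (Al F * At F : M5 F) = 1 + σ := by mce; linear_combination -h2
theorem AtA (h2 : (2 : F) = 0) : (At F * Al F : M2 F) = 0 := by mce <;> linear_combination h2

theorem cs_left (h2 : (2 : F) = 0) {X : M5 F} (hX : X * σ = σ * X) :
    X * Al F = Al F * (Bl F * X * Al F) := by
  have e : X * Al F = Al F * (At F * X * El F) := by
    rw [← Matrix.mul_assoc, ← Matrix.mul_assoc, AAt h2, add_mul, ← hX, Matrix.one_mul, ← mul_one_add,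
      ← AAt h2, Matrix.mul_assoc, Matrix.mul_assoc, AEl, Matrix.mul_one]
  rw [Matrix.mul_assoc (Bl F), e, ← Matrix.mul_assoc (Bl F), BAl, Matrix.one_mul]

theorem cs_right (h2 : (2 : F) = 0) {X : M5 F} (hX : X * σ = σ * X) :
    At F * X = Bl F * X * Al F * At F := by
  rw [Matrix.mul_assoc, Matrix.mul_assoc, AAt h2, mul_one_add, hX, ← one_add_mul, ← AAt h2,
    ← Matrix.mul_assoc, ← Matrix.mul_assoc, BAl, Matrix.one_mul]

theorem cs_mul (h2 : (2 : F) = 0) (X : M5 F) {Y : M5 F} (hY : Y * σ = σ * Y) :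
    Bl F * (X * Y) * Al F = Bl F * X * Al F * (Bl F * Y * Al F) := by
  rw [Matrix.mul_assoc _ (Al F), ← cs_left h2 hY]; simp only [Matrix.mul_assoc]

/-- the centraliser of `σ` -/
def CS (M : Subgroup (GL (Fin 5) F)) : Subgroup (GL (Fin 5) F) := M ⊓ Cm σ

/-- restriction to `[V, σ]` -/
def rl (h2 : (2 : F) = 0) (M : Subgroup (GL (Fin 5) F)) : CS M →* GL (Fin 2) F where
  toFun g := ⟨Bl F * g.1.1 * Al F, Bl F * (g.1⁻¹).1 * Al F,
    by rw [← cs_mul h2 _ (inv_mem g.2).2, Units.mul_inv, Matrix.mul_one, BAl],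
    by rw [← cs_mul h2 _ g.2.2, Units.inv_mul, Matrix.mul_one, BAl]⟩
  map_one' := Units.ext (by simp [BAl])
  map_mul' a b := Units.ext (cs_mul h2 _ b.2.2)

variable {M : Subgroup (GL (Fin 5) F)}

theorem rl_val (h2 : (2 : F) = 0) (g : CS M) : (rl h2 M g).1 = Bl F * g.1.1 * Al F := rfl

theorem ex_CS {X : M5 F} (hX : InM M X) (h : X * σ = σ * X) : ∃ g : CS M, g.1.1 = X := by
  obtain ⟨g, hg, rfl⟩ := hX
  exact ⟨⟨g, hg, h⟩, rfl⟩

/-- membership of an element of the centre of the unipotent radical -/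
def R0 (M : Subgroup (GL (Fin 5) F)) (H : M2 F) : Prop := InM M (1 + Al F * H * At F)

theorem nH_mul (h2 : (2 : F) = 0) (H K : M2 F) :
    (1 + Al F * H * At F) * (1 + Al F * K * At F) = 1 + Al F * (H + K) * At F := by
  have : Al F * H * At F * (Al F * K * At F) = 0 := by
    calc _ = Al F * H * (At F * Al F) * K * At F := by simp only [Matrix.mul_assoc]
      _ = 0 := by rw [AtA h2]; simp
  rw [mul_add, add_mul, add_mul, this, Matrix.mul_add, Matrix.add_mul]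
  simp only [Matrix.one_mul, Matrix.mul_one]; abel

theorem R0.add (h2 : (2 : F) = 0) {H K : M2 F} (a : R0 M H) (b : R0 M K) : R0 M (H + K) :=
  (InM.mul a b).congr (nH_mul h2 H K)

theorem R0.congr {H K : M2 F} (a : R0 M H) (e : H = K) : R0 M K := e ▸ a

theorem R0.conj (h2 : (2 : F) = 0) {H G G' : M2 F} (a : R0 M H) (g : CS M) (hg : (rl h2 M g).1 = G)
    (e : G * G' = 1) : R0 M (G * H * G') := by
  refine (((InM.of g.2.1).mul a).mul (InM.of (inv_mem g.2.1))).congr ?_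
  have e1 : G' = (rl h2 M g⁻¹).1 := by
    rw [map_inv, Units.inv_eq_of_mul_eq_one_right (hg ▸ e)]
  rw [mul_add, add_mul, Matrix.mul_one, Units.mul_inv, ← Matrix.mul_assoc, ← Matrix.mul_assoc,
    cs_left h2 g.2.2, Matrix.mul_assoc _ (At F), cs_right h2 (inv_mem g.2).2, e1, ← hg, rl_val, rl_val]
  simp only [Matrix.mul_assoc]; rfl

/-- the elements acting trivially on `[V, σ]` -/
def Gk (z x₁ x₂ y₁ y₂ a b c d : F) : M5 F :=
  !![z, y₁, y₂, y₂, y₁; x₁, 1 + a, b, b, a; x₂, c, 1 + d, d, c; x₂, c, d, 1 + d, c; x₁, a, b, b, 1 + a]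

theorem det_Gk (h2 : (2 : F) = 0) (z x₁ x₂ y₁ y₂ a b c d : F) : (Gk z x₁ x₂ y₁ y₂ a b c d).det = z := by
  let P : M5 F := !![0,0,1,0,0; 1,0,0,1,0; 0,1,0,0,1; 0,1,0,0,0; 1,0,0,0,0]
  let Q : M5 F := !![0,0,0,0,1; 0,0,0,1,0; 1,0,0,0,0; 0,1,0,0,-1; 0,0,1,-1,0]
  let T : M5 F := !![1,0,x₁,a,b; 0,1,x₂,c,d; 0,0,z,y₁,y₂; 0,0,0,1,0; 0,0,0,0,1]
  have k1 : Q * P = 1 := by
    ext i j; fin_cases i <;> fin_cases j <;> simp [P, Q, Matrix.mul_apply, Fin.sum_univ_succ]
  have k2 : Gk z x₁ x₂ y₁ y₂ a b c d * P = P * T := by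
    ext i j; fin_cases i <;> fin_cases j <;> simp [P, T, Gk, Matrix.mul_apply, Fin.sum_univ_succ] <;> grind
  have k5 : T.det = z := by
    rw [det_of_upperTriangular (by
      intro i j; fin_cases i <;> fin_cases j <;> simp [T]), Fin.prod_univ_five]
    simp [T]
  have k3 := congrArg Matrix.det k2
  have k4 := congrArg Matrix.det k1
  rw [det_mul, det_mul, k5] at k3
  rw [det_mul, det_one] at k4
  linear_combination Q.det * k3 - ((Gk z x₁ x₂ y₁ y₂ a b c d).det - z) * k4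

theorem eq_Gk (h2 : (2 : F) = 0) {X : M5 F} (e1 : X * Al F = Al F) (e2 : At F * X = At F) :
    X = Gk (X 0 0) (X 1 0) (X 2 0) (X 0 1) (X 0 2) (X 4 1) (X 1 2) (X 2 1) (X 3 2) := by
  simp only [← Matrix.ext_iff, Fin.forall_fin_succ, Al, At, Matrix.mul_apply, Fin.sum_univ_succ] at e1 e2
  simp at e1 e2
  ext i j; fin_cases i <;> fin_cases j <;> simp [Gk] <;> grind

theorem Gk_sq (h2 : (2 : F) = 0) (x₁ x₂ y₁ y₂ a b c d : F) :
    Gk 1 x₁ x₂ y₁ y₂ a b c d * Gk 1 x₁ x₂ y₁ y₂ a b c d =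
      1 + Al F * !![x₁ * y₁, x₁ * y₂; x₂ * y₁, x₂ * y₂] * At F := by
  simp only [Gk]; mce <;> grind

theorem Gk_zero (a b c d : F) : Gk 1 0 0 0 0 a b c d = 1 + Al F * !![a, b; c, d] * At F := by
  simp only [Gk]; mce

variable [StarRing F]

theorem Al_adj : (Al F)ᴴ = At F := by mce

theorem At_adj : (At F)ᴴ = Al F := by mce

theorem Gk_uni (h2 : (2 : F) = 0) {x₁ x₂ y₁ y₂ a b c d : F}
    (h : (Gk 1 x₁ x₂ y₁ y₂ a b c d)ᴴ * Gk 1 x₁ x₂ y₁ y₂ a b c d = 1) : y₁ = star x₁ ∧ y₂ = star x₂ := by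
  have a1 := congrFun (congrFun h 0) 1
  have a2 := congrFun (congrFun h 0) 2
  simp [Gk, Matrix.mul_apply, Fin.sum_univ_succ] at a1 a2
  constructor <;> grind

theorem su_of_z (h2 : (2 : F) = 0) {X : Subgroup (GL (Fin 2) F)} {α β : F} (ha : α * star α = 1)
    (hb : β * star β = 1) (h0 : α + β ≠ 0) (hr : star α + star β = α + β) (hD : InM X !![α, 0; 0, β])
    (hz : ∀ s : F, star s = s → InM X !![1 + s, s; s, 1 + s]) : SUin X := by
  obtain ⟨κ, hκ⟩ : ∃ κ, κ * (α + β) = 1 := ⟨_, inv_mul_cancel₀ h0⟩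
  have hκ' : star κ = κ := by
    have := congrArg star hκ
    rw [star_mul', star_add, hr, star_one] at this
    exact mul_right_cancel₀ h0 (this.trans hκ.symm)
  refine su_of_roots (g := mat 1 (κ * α) 1 (κ * β) (by
    intro e; exact one_ne_zero (α := F) (by linear_combination e - hκ + κ * α * h2))) (j := 1) ?_
    (fun s hs => (hz s hs).congr ?_) fun s hs =>
      ((hD.mul (hz (s * κ * κ) (by simp [hs, hκ']))).mul (hD.inv (Y := !![star α, 0; 0, star β]) ?_)).congr ?_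
  · ext i j; fin_cases i <;> fin_cases j <;> simp [Matrix.mul_apply, Fin.sum_univ_succ, hκ'] <;> grind
  · rw [Units.eq_mul_inv_iff_mul_eq]
    ext i j; fin_cases i <;> fin_cases j <;> simp [Matrix.mul_apply, Fin.sum_univ_succ] <;> grind
  · ext i j; fin_cases i <;> fin_cases j <;> simp [Matrix.mul_apply, Fin.sum_univ_succ, ha, hb]
  · rw [Units.eq_mul_inv_iff_mul_eq]
    ext i j; fin_cases i <;> fin_cases j <;> simp [Matrix.mul_apply, Fin.sum_univ_succ] <;> grind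

end Cfsg.Agent.H5.C5U
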