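import Cfsg.Agent.H5.C5U.Cent
import Cfsg.Agent.H5.C5U.End

/-! The overgroups of the normaliser of `5^{1+2}` in `SU₅(q)`, `q` odd. -/

set_option autoImplicit false
set_option linter.unusedSimpArgs false
set_option linter.unusedSectionVars false
set_option linter.unusedVariables false

namespace Cfsg.Agent.H5.C5U

open Matrix Cfsg.Agent.H5.T3 Cfsg.Agent.H8 Cfsg.Agent.H5.C5 Cfsg.Agent.H5.U
open Matrix.ProjGenLinGroup (mk)

variable {F : Type*} [Field F] [StarRing F] [Fintype F] [NStar F] {M : Subgroup (GL (Fin 5) F)}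

/-- a monomial involution -/
def cm : M5 F := !![-1,0,0,0,0; 0,1,0,0,0; 0,0,0,1,0; 0,0,1,0,0; 0,0,0,0,1]

omit [StarRing F] [Fintype F] [NStar F] in
theorem cm_eq : (τ * (τ * (τ * (τ * (δ * (cm * (τ * cm * τ')) ^ 3 * δ') * τ') * τ') * τ') * τ' * cm * σ : M5 F) =
    !![-1,0,0,0,0; 0,0,0,0,-1; 0,0,1,0,0; 0,0,0,1,0; 0,-1,0,0,0] := by
  have e1 : (cm * (τ * cm * τ') : M5 F) = !![-1,0,0,0,0; 0,-1,0,0,0; 0,0,0,0,1; 0,0,1,0,0; 0,0,0,1,0] := by
    simp only [cm]; mc
  have e2 : (!![-1,0,0,0,0; 0,-1,0,0,0; 0,0,0,0,1; 0,0,1,0,0; 0,0,0,1,0] : M5 F) ^ 3 =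
      !![-1,0,0,0,0; 0,-1,0,0,0; 0,0,1,0,0; 0,0,0,1,0; 0,0,0,0,1] := by
    simp only [pow_succ, pow_zero]; mc
  have e3 : ∀ a b c d e : F, (τ * !![a,0,0,0,0; 0,b,0,0,0; 0,0,c,0,0; 0,0,0,d,0; 0,0,0,0,e] * τ' : M5 F) =
      !![e,0,0,0,0; 0,a,0,0,0; 0,0,b,0,0; 0,0,0,c,0; 0,0,0,0,d] := fun a b c d e => by mc
  have e4 : (δ * !![-1,0,0,0,0; 0,-1,0,0,0; 0,0,1,0,0; 0,0,0,1,0; 0,0,0,0,1] * δ' : M5 F) =
      !![-1,0,0,0,0; 0,1,0,0,0; 0,0,-1,0,0; 0,0,0,1,0; 0,0,0,0,1] := by mc
  rw [e1, e2, e4, e3, e3, e3, e3]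
  simp only [cm]; mc

namespace Hu

variable {ω : F} (h : Hu ω M) (h2 : (2 : F) ≠ 0)
include h h2

theorem uni_m (g : CC M) : (rm h2 M g).1ᴴ * (rm h2 M g).1 = 1 := by
  have := res_uni (BAm h2) (CCm g.2) (h.uni _ g.2.1)
  rw [gram_m, mul_smul_comm, smul_mul_assoc, Matrix.mul_one] at this
  exact smul_right_injective _ h2 this

theorem simm : Sim (rm h2 M).range := by
  rintro _ ⟨g, rfl⟩
  exact ⟨1, by rw [one_smul]; exact h.uni_m h2 g⟩

theorem scal (hn : NoRoot M) (k : CC M) (hk : H7.IsScal (rm h2 M k).1) :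
    ∃ a : F, a ^ 5 = 1 ∧ (rm h2 M k).1.det = a ^ 2 ∧ (k.1.1 = a • 1 ∨ k.1.1 = a • σ) := by
  obtain ⟨d, hd⟩ := hk
  replace hd : (rm h2 M k).1 = !![d, 0; 0, d] := by rw [hd]; mc
  have cm : ∀ w, (rp h2 M k).1 * (rp h2 M w).1 = (rp h2 M w).1 * (rp h2 M k).1 := fun w => by
    have : k * w = w * k := h.rm_inj h2 hn (Units.ext (by
      rw [map_mul, map_mul, Units.val_mul, Units.val_mul, hd]
      ext i j; fin_cases i <;> fin_cases j <;> simp [Matrix.mul_apply, Fin.sum_univ_succ, mul_comm]))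
    rw [← Units.val_mul, ← map_mul, this, map_mul, Units.val_mul]
  obtain ⟨u, -, u1, -⟩ := h.exu h2
  obtain ⟨f, c, hc, f1, -⟩ := h.exφ h2
  have c0 : c ≠ 0 := by rintro rfl; simp at hc
  have e := h.diag_of_u (u1 ▸ cm u)
  generalize (rp h2 M k).1 0 0 = a at e
  generalize (rp h2 M k).1 1 1 = b at e
  generalize (rp h2 M k).1 2 2 = b' at e
  obtain ⟨t1, -, t3⟩ := h.TD h2 hn k e hd
  have e1 := cm f
  rw [e, f1] at e1
  have a1 := congrFun (congrFun e1 1) 0
  have a2 := congrFun (congrFun e1 2) 0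
  simp [Matrix.mul_apply, Fin.sum_univ_succ] at a1 a2
  obtain rfl : b = a := mul_left_cancel₀ c0 (by linear_combination a1)
  obtain rfl : b' = b := mul_left_cancel₀ c0 (by linear_combination a2)
  have dd : d ^ 2 = b' ^ 2 := by rcases t1 with t | t <;> rw [t] <;> ring
  refine ⟨b', by linear_combination t3 - b' ^ 3 * dd, by rw [hd, det_fin_two_of]; linear_combination dd, ?_⟩
  rcases t1 with rfl | rfl
  · left; rw [CC_dec h2, e, hd]; mcc <;> field_simp <;> ring
  · right; rw [CC_dec h2, e, hd]; mcc <;> field_simp <;> ring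

theorem scal' (hn : NoRoot M) (k : CC M) (hk : ProjGenLinGroup.mk (rm h2 M k) = 1) :
    ∃ a : F, a ^ 5 = 1 ∧ (rm h2 M k).1.det = a ^ 2 ∧ (k.1.1 = a • 1 ∨ k.1.1 = a • σ) := by
  obtain ⟨k1, k2, k3⟩ := mk_eq_one_iff.1 hk
  exact h.scal h2 hn k ⟨(rm h2 M k).1 1 1, by ext i j; fin_cases i <;> fin_cases j <;> simp [k1, k2, k3]⟩

theorem dk (S : Subgroup (CC M)) (hS : ∀ g, (rm h2 M g).1.det = 1 → g ∈ S) :
    SUin (rm h2 M).range ∨ Ex5 (S.map (rm h2 M)) := by
  obtain ⟨u, -, -, u1⟩ := h.exu h2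
  obtain ⟨s, -, -, s1⟩ := h.exδ h2
  obtain ⟨f, c, hc, -, f1⟩ := h.exφ h2
  have hm := h.om
  have c0 : c ≠ 0 := by rintro rfl; simp at hc
  have n14 : ω ≠ ω ^ 4 := by simpa using om_ne h.om h.five (k := 1) (l := 4) (by norm_num)
  have n23 : ω ^ 2 ≠ ω ^ 3 := om_ne h.om h.five (by norm_num)
  exact (h.dick1 ((h.simm h2).mono (Subgroup.map_le_range _ _))
    ⟨_, Subgroup.mem_map_of_mem _ (hS u (by rw [u1, det_fin_two_of]; linear_combination om5 hm)), u1⟩
    ⟨_, Subgroup.mem_map_of_mem _ (hS s (by rw [s1, det_fin_two_of]; ring)), by simp [s1]⟩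
    ⟨_, Subgroup.mem_map_of_mem _ (hS f (by
      rw [f1, det_smul, det_fin_two_of, Fintype.card_fin]
      linear_combination hc + c ^ 2 * (-hm + (-ω ^ 3 - ω + 4) * om5 hm))),
      by simp [f1, c0, sub_ne_zero.2 n14, sub_ne_zero.2 n23]⟩).imp_left
    fun k => k.mono (Subgroup.map_le_range _ _)

theorem normal_m (k : SUin (rm h2 M).range) (J : Subgroup (CC M)) [hJ : J.Normal] {y : CC M} (hy : y ∈ J)
    (hn : ¬ H7.IsScal (rm h2 M y).1) : SUin (J.map (rm h2 M)) :=
  h.normal ((h.simm h2).mono (Subgroup.map_le_range _ _)) (by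
    rintro G G' _ hu hG hG' ⟨_, ⟨z, z0, rfl⟩, rfl⟩
    obtain ⟨_, ⟨w, rfl⟩, e⟩ := k G hu hG
    refine ⟨_, ⟨w * z * w⁻¹, hJ.conj_mem z z0 w, rfl⟩, ?_⟩
    rw [map_mul, map_mul, map_inv, Units.val_mul, Units.val_mul, e,
      Units.inv_eq_of_mul_eq_one_right (e ▸ hG')]) (InM.of ⟨y, hy, rfl⟩) hn

theorem no_diag (hn : NoRoot M) (k : SUin (rm h2 M).range) (c : CC M)
    (hc : (rm h2 M c).1 = !![1, 0; 0, -1]) : False := by
  obtain ⟨u, -, u1, u2⟩ := h.exu h2
  obtain ⟨s, -, s1, s2⟩ := h.exδ h2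
  obtain ⟨z, -, z1, z2⟩ := h.exσ h2
  have hi := h.rm_inj h2 hn
  have e1 : c * u = u * c := hi (Units.ext (by
    rw [map_mul, map_mul, Units.val_mul, Units.val_mul, hc, u2]; mc))
  have e2 : s * c = c * z * s := hi (Units.ext (by
    simp only [map_mul, Units.val_mul, hc, s2, z2]; mc))
  have e3 := congrArg (fun x => (rp h2 M x).1) e1
  have e4 := congrArg (fun x => (rp h2 M x).1) e2
  simp only [map_mul, Units.val_mul, u1, s1, z1, Matrix.mul_one] at e3 e4
  have e := h.diag_of_u e3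
  generalize (rp h2 M c).1 0 0 = a at e
  generalize (rp h2 M c).1 1 1 = b at e
  generalize (rp h2 M c).1 2 2 = b' at e
  obtain ⟨t1, -, t3⟩ := h.TD h2 hn c e hc
  rw [e] at e4
  have a1 := congrFun (congrFun e4 1) 2
  simp [Matrix.mul_apply, Fin.sum_univ_succ] at a1
  subst a1
  rcases t1 with rfl | rfl
  · obtain rfl : a = -1 := by linear_combination -t3
    have hc' : InM M cm := (InM.of c.2.1).congr (by
      rw [CC_dec h2, e, hc]; simp only [cm]; mcc <;> field_simp <;> ring)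
    obtain ⟨x, hx⟩ := ex_CC h2 ((((h.cτ (h.cτ (h.cτ (h.cτ (h.cδ ((hc'.mul (h.cτ hc')).pow 3)))))).mul
      hc').mul h.hσ).congr cm_eq) (by mc)
    have := h.ker_triv h2 hn x (Units.ext (by
      rw [rm, rs'_val, hx]; mcc <;> field_simp <;> ring))
    rw [this] at hx
    have := congrFun (congrFun hx 0) 0
    simp at this
    exact h2 (by linear_combination this)
  · obtain rfl : a = -1 := by linear_combination -t3
    obtain ⟨_, ⟨g, hg, rfl⟩, eg⟩ := h.normal_m h2 k ((Subgroup.center _).comap (rp h2 M)) (y := c)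
      (Subgroup.mem_center_iff.2 fun g => Units.ext (by
        rw [Units.val_mul, Units.val_mul, e, show (!![-1, 0, 0; 0, -1, 0; 0, 0, -1] : M3 F) = -1 by mc]; simp))
      (by
        rintro ⟨d, hd⟩
        rw [hc] at hd
        have a := congrFun (congrFun hd 0) 0
        have b := congrFun (congrFun hd 1) 1
        simp at a b
        exact h2 (by linear_combination a - b)) !![ω, 0; 0, ω ^ 4] (u2 ▸ h.uni_m h2 u)
      (by rw [det_fin_two_of]; linear_combination om5 h.om)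
    obtain rfl := hi (Units.ext (eg.trans u2.symm))
    have := congrArg Units.val (Subgroup.mem_center_iff.1 hg (rp h2 M s))
    rw [Units.val_mul, Units.val_mul, s1, u1] at this
    have := congrFun (congrFun this 1) 2
    simp [Matrix.mul_apply, Fin.sum_univ_succ] at this
    exact om_ne h.om h.five (k := 4) (l := 1) (by norm_num) (by simpa using this)

theorem inv_scal (hn : NoRoot M) (c : CC M) (hc : c * c = 1) : H7.IsScal (rm h2 M c).1 := by
  have k3 : (rm h2 M c).1 * (rm h2 M c).1 = 1 := by rw [← Units.val_mul, ← map_mul, hc, map_one]; rfl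
  have k4 := congrArg Matrix.det k3
  rw [det_mul, det_one] at k4
  by_contra hs
  have a00 := congrFun (congrFun k3 0) 0
  have a01 := congrFun (congrFun k3 0) 1
  have a10 := congrFun (congrFun k3 1) 0
  have a11 := congrFun (congrFun k3 1) 1
  simp [-Units.val_mul, Matrix.mul_apply, Fin.sum_univ_succ] at a00 a01 a10 a11
  have tr : (rm h2 M c).1 1 1 = -(rm h2 M c).1 0 0 := by
    by_contra t
    have t' : (rm h2 M c).1 1 1 + (rm h2 M c).1 0 0 ≠ 0 := fun e => t (by linear_combination e)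
    refine hs ⟨(rm h2 M c).1 0 0, ?_⟩
    ext i j; fin_cases i <;> fin_cases j <;> simp <;> apply mul_left_cancel₀ t'
    · linear_combination a01
    · linear_combination a10
    · linear_combination a11 - a00
  by_cases k : SUin (rm h2 M).range
  · have key : ∀ G : M2 F, Gᴴ * G = 1 → G.det = 1 → (rm h2 M c).1 * G = G * !![1, 0; 0, -1] → False := by
      intro G g1 g2 g3
      obtain ⟨_, ⟨w, rfl⟩, e⟩ := k G g1 g2
      refine h.no_diag h2 hn k (w⁻¹ * c * w) ?_
      rw [map_mul, map_mul, map_inv, mul_assoc, Units.val_mul, Units.inv_mul_eq_iff_eq_mul, Units.val_mul, e, g3]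
    have hA : (rm h2 M c).1ᴴ = (rm h2 M c).1 := by
      rw [← Matrix.mul_one (rm h2 M c).1ᴴ, ← k3, ← Matrix.mul_assoc, h.uni_m h2 c, Matrix.one_mul]
    have b0 := congrFun (congrFun hA 0) 0
    have b1 := congrFun (congrFun hA 1) 0
    have b2 := congrFun (congrFun hA 0) 1
    rw [conjTranspose_apply] at b0 b1 b2
    generalize (rm h2 M c).1 = A at *
    by_cases a1 : 1 + A 0 0 = 0
    · have : A 0 1 * star (A 0 1) = 0 := by rw [b1]; linear_combination a00 - (A 0 0 - 1) * a1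
      have z1 : A 0 1 = 0 := by simpa using this
      refine key !![0, -1; 1, 0] (by mc) (by simp [det_fin_two]) ?_
      ext i j; fin_cases i <;> fin_cases j <;> simp [Matrix.mul_apply, Fin.sum_univ_succ, z1, tr, ← b1]
      · linear_combination -a1
      · linear_combination -a1
    · obtain ⟨μ, hμ⟩ := exists_norm_mul (s := 2 * (1 + A 0 0)) (t := 1) (by simp [b0])
        (mul_ne_zero h2 a1) (by simp)
      refine key !![μ * (1 + A 0 0), -(star μ * A 0 1); μ * A 1 0, star μ * (1 + A 0 0)] ?_ ?_ ?_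
      · ext i j; fin_cases i <;> fin_cases j <;> simp [Matrix.mul_apply, Fin.sum_univ_succ, b0, b1, b2]
        · linear_combination hμ + μ * star μ * a00
        · ring
        · ring
        · linear_combination hμ + μ * star μ * a00
      · rw [det_fin_two_of]; linear_combination hμ + μ * star μ * a00
      · ext i j; fin_cases i <;> fin_cases j <;> simp [Matrix.mul_apply, Fin.sum_univ_succ, tr]
        · linear_combination μ * a00
        · ring
        · ring
        · linear_combination (-star μ) * a00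
  · have k1 := (h.dk h2 (GeneralLinearGroup.det.comp (rm h2 M)).ker fun g hg => Units.ext hg).resolve_left k
    have k2 := (h.dk h2 ⊤ fun g hg => trivial).resolve_left k
    have k3 := Subgroup.eq_of_le_of_card_ge (Subgroup.map_mono (f := ProjGenLinGroup.mk) (Subgroup.map_mono (f := rm h2 M)
      (le_top (a := (GeneralLinearGroup.det.comp (rm h2 M)).ker)))) (by rw [k1.1, k2.1])
    obtain ⟨_, ⟨s, hs, rfl⟩, e⟩ := k3.ge ⟨_, ⟨c, trivial, rfl⟩, rfl⟩
    obtain ⟨a, a5, ad, -⟩ := h.scal' h2 hn (s⁻¹ * c) (by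
      rw [map_mul, map_mul, map_inv, map_inv, e, inv_mul_cancel])
    have e1 : (rm h2 M s).1.det = 1 := congrArg Units.val hs
    have e2 : (rm h2 M c).1.det = a ^ 2 := by
      rw [show c = s * (s⁻¹ * c) by group, map_mul, Units.val_mul, det_mul, e1, ad, one_mul]
    rw [det_fin_two, tr] at e2
    have e3 : a ^ 2 = -1 := by linear_combination -e2 - a00
    exact h2 (by linear_combination (a ^ 8 - a ^ 6 + a ^ 4 - a ^ 2 + 1) * e3 - (a ^ 5 + 1) * a5)

theorem odd_main (hn : NoRoot M) : Concl ω M := by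
  refine h.endgame (fun c hc e1 e2 => ?_) fun O hO ho c hc e => ?_
  · obtain ⟨a, a5, -, ha⟩ := h.scal h2 hn ⟨c, mem_CC h2 hc e1⟩
      (h.inv_scal h2 hn _ (Subtype.ext (Units.ext e2)))
    have a1 : a = 1 := by
      have : a * a = 1 := by
        rcases ha with ha | ha <;> rw [show c.1 = _ from ha] at e2 <;>
          simpa [σσ] using congrFun (congrFun e2 0) 0
      linear_combination a5 - a * (a ^ 2 + 1) * this
    simpa [a1] using ha
  let ι : CC M →* M := Subgroup.inclusion inf_le_left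
  have hι : Function.Injective ι := Subgroup.inclusion_injective _
  let c' : CC M := ⟨c.1, mem_CC h2 c.2 e⟩
  suffices ∃ a : F, a ^ 5 = 1 ∧ (rm h2 M c').1.det = a ^ 2 ∧ (c'.1.1 = a • 1 ∨ c'.1.1 = a • σ) from
    let ⟨a, a5, _, ha⟩ := this; ⟨a, a5, ha⟩
  rcases h.dk h2 ⊤ fun g hg => trivial with k | ⟨k1, ⟨e⟩, -⟩
  · refine h.scal h2 hn c' (by_contra fun hs => ?_)
    haveI := hO.comap ι
    obtain ⟨_, ⟨g, hg, rfl⟩, eg⟩ := h.normal_m h2 k (O.comap ι) (y := c') hc hs (-1) (by simp)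
      (by simp [det_fin_two])
    have : ι g = 1 := odd_no ho hg (by
      rw [← map_mul, h.ker_triv h2 hn (g * g) (Units.ext (by rw [map_mul, Units.val_mul, eg]; simp)), map_one])
    rw [hι (this.trans (map_one ι).symm), map_one] at eg
    have := congrFun (congrFun eg 0) 0
    simp at this
    exact h2 (by linear_combination this)
  let f : CC M →* _ := ProjGenLinGroup.mk.comp (rm h2 M)
  have ef : ((⊤ : Subgroup (CC M)).map (rm h2 M)).map ProjGenLinGroup.mk = f.range := by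
    rw [Subgroup.map_map, MonoidHom.range_eq_map]
  rw [ef] at k1 e
  haveI : IsSimpleGroup f.range := e.isSimpleGroup
  refine h.scal' h2 hn c' (show f c' = 1 from ?_)
  rcases ((hO.comap ι).map f.rangeRestrict f.rangeRestrict_surjective).eq_bot_or_eq_top with k | k
  · have : f.rangeRestrict c' ∈ (O.comap ι).map f.rangeRestrict := ⟨_, hc, rfl⟩
    rw [k] at this
    exact congrArg Subtype.val this
  · have d1 := Subgroup.card_map_dvd (O.comap ι) f.rangeRestrict
    rw [k, Subgroup.card_top, k1] at d1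
    have := (Dvd.dvd.trans (by norm_num : 2 ∣ 60) d1).trans (Subgroup.card_comap_dvd_of_injective O ι hι)
    exact absurd (even_iff_two_dvd.2 this) (Nat.not_even_iff_odd.2 ho)

end Hu

end Cfsg.Agent.H5.C5U
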