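import Cfsg.Agent.H5.C5U.Two

/-! The normaliser of `5^{1+2}` in `SU₅(q)`: the stabiliser of the splitting `W₀ ⊕ W₁ ⊕ W₂`. -/

set_option autoImplicit false
set_option linter.unusedSimpArgs false
set_option linter.unusedSectionVars false
set_option linter.unusedVariables false

namespace Cfsg.Agent.H5.C5U

open Matrix Cfsg.Agent.H5.T3 Cfsg.Agent.H8 Cfsg.Agent.H5.C5 Cfsg.Agent.H5.U
open Matrix.ProjGenLinGroup (mk)

variable {F : Type*} [Field F] [StarRing F]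

theorem res_uni {n k : Type} [Fintype n] [DecidableEq n] [Fintype k] [DecidableEq k]
    {A : Matrix n k F} {B : Matrix k n F} (h : B * A = 1) {X : Matrix n n F}
    (hX : X * (A * B) = A * B * X) (hu : Xᴴ * X = 1) :
    (B * X * A)ᴴ * (Aᴴ * A) * (B * X * A) = Aᴴ * A := by
  have e : A * (B * X * A) = X * A := by
    rw [← Matrix.mul_assoc, ← Matrix.mul_assoc, ← hX, Matrix.mul_assoc, Matrix.mul_assoc, h, Matrix.mul_one]
  rw [← Matrix.mul_assoc (B * X * A)ᴴ, ← conjTranspose_mul, Matrix.mul_assoc _ A, e, conjTranspose_mul,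
    Matrix.mul_assoc, ← Matrix.mul_assoc _ X, hu, Matrix.one_mul]

/-- `M` contains no full group of unitary transvections -/
def NoRoot (M : Subgroup (GL (Fin 5) F)) : Prop := ∀ e : Fin 5 → F, e ≠ 0 → star e ⬝ᵥ e = 0 →
  ¬ ∀ c : F, c + star c = 0 → InM M (1 + c • vecMulVec e (star e))

/-- the standing hypotheses on the overgroup `M` -/
structure Hu (ω : F) (M : Subgroup (GL (Fin 5) F)) : Prop where
  om : ω ^ 4 + ω ^ 3 + ω ^ 2 + ω + 1 = 0
  five : (5 : F) ≠ 0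
  hρ : InM M (ρ ω)
  hτ : InM M τ
  hu : InM M (uu ω)
  hδ : InM M δ
  hφ : ∃ c : F, 5 * c ^ 2 = 1 ∧ InM M (c • Φ ω)
  det : ∀ g ∈ M, g.1.det = 1
  uni : ∀ g ∈ M, g.1ᴴ * g.1 = 1
  st : star ω = ω ^ 4
  gen : ∀ k : Subfield F, ω + ω ^ 4 ∈ k → ∀ t : F, star t = t → t ∈ k

/-- matrices diagonal in the basis `(1, 1), (1, -1)` -/
def Ps (x y : F) : M2 F := !![(x + y) / 2, (x - y) / 2; (x - y) / 2, (x + y) / 2]

omit [StarRing F] in
theorem Ps_mul (h2 : (2 : F) ≠ 0) (x y x' y' : F) : Ps x y * Ps x' y' = Ps (x * x') (y * y') := by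
  ext i j; fin_cases i <;> fin_cases j <;> simp [Ps, Matrix.mul_apply, Fin.sum_univ_succ] <;>
    field_simp <;> ring

theorem root23 {t : F} (ht : t * star t = -1) (c : F) :
    A0 F * (1 : GL (Fin 1) F).1 * B0 F + A1 F * (1 : GL (Fin 2) F).1 * B1 F +
      A2 F * !![1 + c, c * star t; c * t, 1 - c] * B2 F =
      1 + c • vecMulVec ![0, 0, 1, t, 0] (star ![0, 0, 1, t, 0]) := by
  have ev : vecMulVec ![0, 0, 1, t, 0] (star ![0, 0, 1, t, 0]) =
      !![0,0,0,0,0; 0,0,0,0,0; 0,0,1,star t,0; 0,0,t,-1,0; 0,0,0,0,0] := by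
    ext i j; rw [vecMulVec_apply, Pi.star_apply]; fin_cases i <;> fin_cases j <;> simp [ht]
  rw [ev]
  mcx
  ring

omit [StarRing F] in
theorem Ps_swap (x y : F) : !![0, 1; 1, 0] * Ps x y * !![0, 1; 1, 0] = Ps x y := by
  simp only [Ps]; mc

variable [Fintype F] [NStar F] {M : Subgroup (GL (Fin 5) F)}

namespace Hu

variable {ω : F} (h : Hu ω M)
include h

theorem hσ : InM M σ := (h.hδ.mul h.hδ).congr δδ

theorem hδ' : InM M δ' := h.hδ.inv δδ'

theorem cτ {X : M5 F} (hX : InM M X) : InM M (τ * X * τ') := (h.hτ.mul hX).mul (h.hτ.inv ττ')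

theorem cδ {X : M5 F} (hX : InM M X) : InM M (δ * X * δ') := (h.hδ.mul hX).mul h.hδ'

theorem th : (ω + ω ^ 4) ^ 2 + (ω + ω ^ 4) - 1 = 0 := by
  linear_combination h.om + (ω ^ 3 + 2) * om5 h.om

theorem th0 : ω + ω ^ 4 ≠ 0 := fun e => by simpa [e] using h.th

theorem th4 : (ω + ω ^ 4) ^ 4 ≠ 1 := fun e => h.five (by
  have := h.th
  generalize ω + ω ^ 4 = t at *
  linear_combination (3 * t ^ 3 + t ^ 2 + 2 * t - 1) * this - (3 * t + 4) * e)

theorem thr : star (ω + ω ^ 4) = ω + ω ^ 4 := by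
  rw [star_add, star_pow, h.st]; linear_combination (ω ^ 11 + ω ^ 6 + ω) * om5 h.om

theorem normal {J : Subgroup (GL (Fin 2) F)} (hS : Sim J)
    (hJ : ∀ g g' y : M2 F, gᴴ * g = 1 → g.det = 1 → g * g' = 1 → InM J y → InM J (g * y * g'))
    {y : M2 F} (hy : InM J y) (hn : ¬ H7.IsScal y) : SUin J :=
  su_of_normal h.th0 h.th4 h.thr hS hJ hy hn

theorem dick1 {X : Subgroup (GL (Fin 2) F)} (hS : Sim X) (ha : InM X !![ω, 0; 0, ω ^ 4])
    (hs : ∃ s ∈ X, s 0 0 = 0 ∧ s 1 1 = 0)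
    (hf : ∃ f ∈ X, (f 0 0 ≠ 0 ∨ f 1 1 ≠ 0) ∧ (f 0 1 ≠ 0 ∨ f 1 0 ≠ 0)) : SUin X ∨ Ex5 X :=
  dick hS (om0 h.om) (pow_ne_zero 4 (om0 h.om))
    (by rw [← pow_mul, mul_comm, pow_mul, om5 h.om, one_pow])
    (by simpa using om_ne h.om h.five (k := 1) (l := 4) (by norm_num)) ha (fun k hk => h.gen k (by
      rw [← pow_succ', om5 h.om, div_one] at hk
      have := k.sub_mem k.one_mem hk
      rwa [show 1 - (ω + ω ^ 4) ^ 2 = ω + ω ^ 4 by linear_combination -h.th] at this)) hs hf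

theorem sim1 : Sim (r1 M).range := by
  rintro _ ⟨g, rfl⟩
  have := res_uni BA1 (HH1 g.2) (h.uni _ g.2.1)
  rw [show (A1 F)ᴴ * A1 F = 1 by mc, Matrix.mul_one] at this
  exact ⟨1, by rw [one_smul]; exact this⟩

theorem sim2 : Sim (r2 M).range := by
  rintro _ ⟨g, rfl⟩
  have := res_uni BA2 (HH2 g.2) (h.uni _ g.2.1)
  rw [show (A2 F)ᴴ * A2 F = 1 by mc, Matrix.mul_one] at this
  exact ⟨1, by rw [one_smul]; exact this⟩

theorem swap12 (g : HH M) : ∃ g' : HH M, r0 M g' = r0 M g ∧ (r2 M g').1 = (r1 M g).1 ∧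
    (r1 M g').1 = !![0, 1; 1, 0] * (r2 M g).1 * !![0, 1; 1, 0] := by
  have e0 : (δ' * (A0 F * B0 F) : M5 F) = A0 F * B0 F * δ' := by mc
  have e1 : (δ' * (A1 F * B1 F) : M5 F) = A2 F * B2 F * δ' := by mc
  have e2 : (δ' * (A2 F * B2 F) : M5 F) = A1 F * B1 F * δ' := by mc
  have f0 : (δ * (A0 F * B0 F) : M5 F) = A0 F * B0 F * δ := by mc
  have f1 : (δ * (A1 F * B1 F) : M5 F) = A2 F * B2 F * δ := by mc
  have f2 : (δ * (A2 F * B2 F) : M5 F) = A1 F * B1 F * δ := by mc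
  have key : ∀ e e' : M5 F, δ' * e = e' * δ' → δ * e' = e * δ → g.1.1 * e' = e' * g.1.1 →
      δ * g.1.1 * δ' * e = e * (δ * g.1.1 * δ') := fun e e' a b c => by
    rw [Matrix.mul_assoc, a, ← Matrix.mul_assoc, Matrix.mul_assoc δ, c, ← Matrix.mul_assoc, b]
    simp only [Matrix.mul_assoc]
  obtain ⟨g', hg'⟩ := mem_HH (h.cδ (InM.of g.2.1)) (key _ _ e0 f0 (HH0 g.2))
    (key _ _ e1 f2 (HH2 g.2)) (key _ _ e2 f1 (HH1 g.2))
  refine ⟨g', Units.ext ?_, ?_, ?_⟩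
  · rw [r0, rs'_val, rs'_val, hg']
    generalize g.1.1 = X
    mcx
  · rw [r1, r2, rs'_val, rs'_val, hg']
    generalize g.1.1 = X
    mcx
  · rw [r1, r2, rs'_val, rs'_val, hg']
    generalize g.1.1 = X
    mcx

theorem exρ : ∃ g : HH M, (r0 M g).1 = 1 ∧ (r1 M g).1 = !![ω, 0; 0, ω ^ 4] ∧
    (r2 M g).1 = !![ω ^ 2, 0; 0, ω ^ 3] := by
  obtain ⟨g, hg⟩ := mem_HH h.hρ (by mc) (by mc) (by mc)
  refine ⟨g, ?_, ?_, ?_⟩ <;> simp only [r0, r1, r2, rs'_val, hg] <;> mc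

theorem fin2 (hn : NoRoot M) (h2 : SUin (r2 M).range) (y : HH M) (y0 : r0 M y = 1) (y1 : r1 M y = 1) :
    H7.IsScal (r2 M y).1 := by
  by_contra y2
  have hJ := h.normal (J := ((r0 M).ker ⊓ (r1 M).ker).map (r2 M))
    (h.sim2.mono (Subgroup.map_le_range _ _)) (by
      rintro G G' _ hu hG hG' ⟨_, ⟨z, ⟨z0, z1⟩, rfl⟩, rfl⟩
      obtain ⟨_, ⟨w, rfl⟩, e⟩ := h2 G hu hG
      refine ⟨_, ⟨w * z * w⁻¹, ⟨?_, ?_⟩, rfl⟩, ?_⟩
      · exact (MonoidHom.normal_ker _).conj_mem z z0 w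
      · exact (MonoidHom.normal_ker _).conj_mem z z1 w
      · rw [map_mul, map_mul, map_inv, Units.val_mul, Units.val_mul, e,
          Units.inv_eq_of_mul_eq_one_right (e ▸ hG')]) (InM.of ⟨y, ⟨y0, y1⟩, rfl⟩) y2
  obtain ⟨t, ht⟩ := exists_norm (t := (-1 : F)) (by simp)
  refine hn ![0, 0, 1, t, 0] (fun e => by simpa using congrFun e 2) (by
    simp [dotProduct, Fin.sum_univ_succ]; linear_combination ht) fun c hc => ?_
  have hc' : star c = -c := by linear_combination hc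
  obtain ⟨_, ⟨z, ⟨z0, z1⟩, rfl⟩, e⟩ := hJ !![1 + c, c * star t; c * t, 1 - c] (by
    ext i j; fin_cases i <;> fin_cases j <;> simp [Matrix.mul_apply, Fin.sum_univ_succ, hc'] <;>
      grind) (by rw [det_fin_two_of]; linear_combination (-c ^ 2) * ht)
  refine (InM.of z.2.1).congr ?_
  rw [HH_dec, show r0 M z = 1 from z0, show r1 M z = 1 from z1, e]
  exact root23 ht c

theorem su2 (h1 : SUin (r1 M).range) : SUin (r2 M).range := fun Y hu hY => by
  obtain ⟨_, ⟨g, rfl⟩, e⟩ := h1 Y hu hY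
  obtain ⟨g', -, e', -⟩ := h.swap12 g
  exact ⟨_, ⟨g', rfl⟩, e'.trans e⟩

theorem not_su1 (h2 : (2 : F) ≠ 0) (hn : NoRoot M) : ¬ SUin (r1 M).range := by
  intro h1
  have k2 := h.su2 h1
  have h5 := om5 h.om
  obtain ⟨ν, hν⟩ := exists_norm (t := (2⁻¹ : F)) (by simp)
  have hν' : 2 * (ν * star ν) = 1 := by rw [hν]; field_simp
  obtain ⟨_, ⟨g, rfl⟩, e⟩ := h1 !![ν, -star ν; ν, star ν] (by
    ext i j; fin_cases i <;> fin_cases j <;> simp [Matrix.mul_apply, Fin.sum_univ_succ] <;>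
      linear_combination hν') (by rw [det_fin_two_of]; linear_combination hν')
  obtain ⟨r, q0, q1, q2⟩ := h.exρ
  obtain ⟨s, hs⟩ := mem_HH h.hσ (by mc) (by mc) (by mc)
  have s1 : (r1 M s).1 = !![0, 1; 1, 0] := by rw [r1, rs'_val, hs]; mc
  have s2 : (r2 M s).1 = !![0, 1; 1, 0] := by rw [r2, rs'_val, hs]; mc
  obtain ⟨y, hy⟩ : ∃ y, y = g * r * g⁻¹ := ⟨_, rfl⟩
  have y0 : r0 M y = 1 := by rw [hy, map_mul, map_mul, show r0 M r = 1 from Units.ext q0]; simp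
  have y1 : (r1 M y).1 = Ps ω (ω ^ 4) := by
    rw [hy, map_mul, map_mul, map_inv, Units.val_mul, Units.mul_inv_eq_iff_eq_mul, Units.val_mul, e, q1]
    ext i j; fin_cases i <;> fin_cases j <;> simp [Ps, Matrix.mul_apply, Fin.sum_univ_succ] <;>
      field_simp <;> ring
  have t2 : (r2 M y).1.trace = ω ^ 2 + ω ^ 3 := by
    rw [hy, map_mul, map_mul, map_inv, Units.val_mul, Units.val_mul, trace_units_conj, q2, trace_fin_two_of]
  have d2 : (r2 M y).1.det = 1 := by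
    rw [hy, map_mul, map_mul, map_inv, Units.val_mul, Units.val_mul, det_units_conj, q2, det_fin_two_of]
    linear_combination h5
  have n23 : ω ^ 2 + ω ^ 3 ≠ 0 := fun e => by
    have := h.th
    rw [show ω + ω ^ 4 = -1 by linear_combination h.om - e] at this
    simp at this
  obtain ⟨c, hc⟩ := h.fin2 hn k2 (y * s * y⁻¹ * s⁻¹) (by
    rw [map_mul, map_mul, map_mul, map_inv, map_inv, y0]; simp) (by
    rw [map_mul, map_mul, map_mul, map_inv, map_inv, mul_inv_eq_one, mul_inv_eq_iff_eq_mul]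
    apply Units.ext
    rw [Units.val_mul, Units.val_mul, y1, s1]; simp only [Ps]; mc)
  rw [map_mul, map_mul, map_mul, map_inv, map_inv, Units.val_mul, Units.mul_inv_eq_iff_eq_mul,
    Units.val_mul, Units.mul_inv_eq_iff_eq_mul, Units.val_mul, s2] at hc
  obtain ⟨y', z0, z2, z1⟩ := h.swap12 y
  have key : ∀ n : ℕ, (r1 M y').1 = (r1 M y).1 ^ n → (r2 M y).1 ^ n = Ps (ω ^ 4) ω → False := by
    intro n e1 e2
    obtain ⟨d, hd⟩ := h.fin2 hn k2 (y' * (y ^ n)⁻¹) (by rw [map_mul, map_inv, map_pow, z0, y0]; simp)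
      (by rw [map_mul, map_inv, map_pow, mul_inv_eq_one]; exact Units.ext e1)
    rw [map_mul, map_inv, map_pow, Units.val_mul, Units.mul_inv_eq_iff_eq_mul, z2,
      Units.val_pow_eq_pow_val, e2, y1] at hd
    have a := congrFun (congrFun hd 0) 0
    have b := congrFun (congrFun hd 0) 1
    simp [Ps] at a b
    field_simp at a b
    refine om_pow h.om h.five (k := 6) (by norm_num) (mul_left_cancel₀ (mul_ne_zero h2 (pow_ne_zero 2 (om0 h.om))) ?_)
    linear_combination ω ^ 4 * (a - b) - ω * (a + b)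
  rw [trace_fin_two] at t2
  rw [det_fin_two] at d2
  generalize (r2 M y).1 = Y at *
  have a00 := congrFun (congrFun hc 0) 0
  have a01 := congrFun (congrFun hc 0) 1
  have a10 := congrFun (congrFun hc 1) 0
  simp [Matrix.mul_apply, vecMul, dotProduct, Fin.sum_univ_succ] at a00 a01 a10
  have c1 : c = 1 := mul_right_cancel₀ n23 (by rw [← t2]; linear_combination -a01 - a10)
  rw [c1, one_mul] at a00 a01
  have : (2 * Y 0 1 - (ω ^ 2 - ω ^ 3)) * (2 * Y 0 1 + (ω ^ 2 - ω ^ 3)) = 0 := by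
    rw [← a01, ← a00] at d2
    rw [← a01] at t2
    linear_combination (-4) * d2 + (2 * Y 0 0 + ω ^ 2 + ω ^ 3) * t2 + 4 * h5
  have eY : ∀ x y : F, x + y = ω ^ 2 + ω ^ 3 → 2 * Y 0 1 = x - y → Y = Ps x y := fun x y k1 k2 => by
    ext i j; fin_cases i <;> fin_cases j <;> simp only [Ps, Fin.zero_eta, Fin.mk_one, Fin.isValue,
      of_apply, cons_val', cons_val_zero, cons_val_one, cons_val_fin_one] <;> rw [eq_div_iff h2]
    · linear_combination t2 - k1 + a01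
    · linear_combination k2
    · linear_combination k2 - 2 * a00
    · linear_combination t2 - k1 - a01
  rcases mul_eq_zero.1 this with k | k
  · have := eY (ω ^ 2) (ω ^ 3) rfl (by linear_combination k)
    refine key 2 ?_ ?_
    · rw [z1, y1, this, pow_two (Ps _ _), Ps_mul h2, Ps_swap]; congr 1
      · ring
      · linear_combination (-ω ^ 3) * h5
    · rw [this, pow_two (Ps _ _), Ps_mul h2]; congr 1
      · ring
      · linear_combination ω * h5
  · have := eY (ω ^ 3) (ω ^ 2) (by ring) (by linear_combination k)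
    refine key 3 ?_ ?_
    · rw [z1, y1, this, pow_succ (Ps _ _), pow_two (Ps _ _), Ps_mul h2, Ps_mul h2, Ps_swap]; congr 1
      · ring
      · linear_combination (-ω ^ 7 - ω ^ 2) * h5
    · rw [this, pow_succ (Ps _ _), pow_two (Ps _ _), Ps_mul h2, Ps_mul h2]; congr 1
      · linear_combination ω ^ 4 * h5
      · linear_combination ω * h5

theorem T1 (h2 : (2 : F) ≠ 0) (hn : NoRoot M) (g : HH M) {a b : F} (hg : (r1 M g).1 = !![a, b; b, a]) :
    a = 0 ∨ b = 0 := by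
  by_contra! hab
  obtain ⟨r, -, q1, -⟩ := h.exρ
  obtain ⟨s, hs⟩ := mem_HH h.hσ (by mc) (by mc) (by mc)
  have s1 : (r1 M s).1 = !![0, 1; 1, 0] := by rw [r1, rs'_val, hs]; mc
  rcases h.dick1 h.sim1 ⟨_, ⟨r, rfl⟩, q1⟩
    ⟨_, ⟨s, rfl⟩, by simp [s1]⟩ ⟨_, ⟨g, rfl⟩, by simp [hg, hab.1, hab.2]⟩ with k | k
  · exact h.not_su1 h2 hn k
  · refine k.not_comm (s := r1 M s) (x := r1 M g) ⟨s, rfl⟩ ⟨g, rfl⟩ ?_ ?_ ?_ ?_
    · rw [← map_mul, mk_eq_one_iff]; simp [s1, mul_apply, Fin.sum_univ_succ]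
    · rw [Ne, mk_eq_one_iff]; simp [s1]
    · rw [← map_mul, Ne, mk_eq_one_iff]
      simp only [Units.val_mul, hg]
      rintro ⟨e, -⟩
      simp [mul_apply, Fin.sum_univ_succ] at e
      exact mul_ne_zero h2 (mul_ne_zero hab.1 hab.2) (by linear_combination e)
    · have : r1 M g * r1 M s = r1 M s * r1 M g := by
        apply Units.ext
        rw [Units.val_mul, Units.val_mul, hg, s1]; mc
      rw [← map_mul ProjGenLinGroup.mk, ← map_mul ProjGenLinGroup.mk, this]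

theorem T2 (h2 : (2 : F) ≠ 0) (hn : NoRoot M) (g : HH M) {a b : F} (hg : (r2 M g).1 = !![a, b; b, a]) :
    a = 0 ∨ b = 0 := by
  obtain ⟨g', -, -, e⟩ := h.swap12 g
  exact h.T1 h2 hn g' (by rw [e, hg]; mc)

end Hu

end Cfsg.Agent.H5.C5U
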