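import Cfsg.Agent.H5.C5.Cent2
import Cfsg.Agent.H5.U.Field

/-! Two-dimensional unitary lemmas: consequences of Dickson's theorem. -/

set_option autoImplicit false
set_option linter.unusedSimpArgs false
set_option linter.unusedSectionVars false
set_option linter.unusedVariables false

namespace Cfsg.Agent.H5.C5U

open Matrix OnePoint Cfsg.Agent.H8 Cfsg.Agent.H5.T3 Cfsg.Agent.H5.C5 Cfsg.Agent.H5.U
open scoped MatrixGroups
open Matrix.ProjGenLinGroup (mk)

variable {F : Type*} [Field F] [StarRing F]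

/-- `X` consists of unitary similitudes -/
def Sim (X : Subgroup (GL (Fin 2) F)) : Prop := ∀ x ∈ X, ∃ l : F, x.1ᴴ * x.1 = l • 1

/-- `X` contains the special unitary group -/
def SUin (X : Subgroup (GL (Fin 2) F)) : Prop := ∀ Y : M2 F, Yᴴ * Y = 1 → Y.det = 1 → InM X Y

theorem SUin.mono {X Y : Subgroup (GL (Fin 2) F)} (h : SUin X) (e : X ≤ Y) : SUin Y :=
  fun Z a b => (h Z a b).mono e

theorem Sim.mono {X Y : Subgroup (GL (Fin 2) F)} (h : Sim Y) (e : X ≤ Y) : Sim X :=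
  fun x hx => h x (e hx)

omit [StarRing F] in
theorem inM_unip [Fintype F] {n : Type} [Fintype n] [DecidableEq n] [Nonempty n]
    {X : Subgroup (GL n F)} {c : F} {N : Matrix n n F} (hN : N * N = 0) (h : InM X (c • (1 + N))) :
    InM X (1 + N) := by
  have c0 := InM.ne h
  have h1 := h.pow (Fintype.card F)
  rw [_root_.smul_pow, FiniteField.pow_card, unip2_pow hN, ← Nat.cast_smul_eq_nsmul F,
    FiniteField.cast_card_eq_zero, zero_smul, add_zero] at h1
  exact ((h1.inv (Y := c⁻¹ • 1) (by simp [smul_smul, c0])).mul h).congr (by simp [smul_smul, c0])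

/-- pull-back up to scalars -/
def PBs {G : Type*} [Group G] {n : Type} [Fintype n] [DecidableEq n] [Nonempty n]
    (ψ : G →* GL n F) (X : Subgroup (GL n F)) : Subgroup G where
  carrier := {g | ∃ c : F, InM X (c • (ψ g).1)}
  one_mem' := ⟨1, (InM.of X.one_mem).congr (by simp)⟩
  mul_mem' := fun ⟨c, hc⟩ ⟨d, hd⟩ => ⟨c * d, (hc.mul hd).congr (by
    rw [map_mul, Units.val_mul, smul_mul_smul_comm])⟩
  inv_mem' := fun {g} ⟨c, hc⟩ => ⟨c⁻¹, hc.inv (by
    rw [smul_mul_smul_comm, map_inv, Units.mul_inv, mul_inv_cancel₀ (InM.ne hc), one_smul])⟩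

/-- the embedding of `GL₂(F₀)` given by a frame -/
def ψ0 (g : GL (Fin 2) F) : GL (Fin 2) (F0 F) →* GL (Fin 2) F :=
  (MulAut.conj g).toMonoidHom.comp (GeneralLinearGroup.map (F0 F).subtype)

theorem ψ0_val (g : GL (Fin 2) F) (y : GL (Fin 2) (F0 F)) :
    (ψ0 g y).1 = g.1 * y.1.map (F0 F).subtype * (g⁻¹).1 := rfl

theorem real_of {j l : F} (hj : j ≠ 0) {Y : M2 F}
    (h : Yᴴ * !![0, j; -j, 0] * Y = l • !![0, j; -j, 0]) (i k : Fin 2) :
    star (Y i k) * Y.det = l * Y i k := by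
  have a := congrFun (congrFun h 0) 0
  have b := congrFun (congrFun h 0) 1
  have c := congrFun (congrFun h 1) 0
  have d := congrFun (congrFun h 1) 1
  simp [Matrix.mul_apply, Fin.sum_univ_succ] at a b c d
  apply mul_left_cancel₀ hj
  rw [det_fin_two]
  fin_cases i <;> fin_cases k <;> simp only [Fin.zero_eta, Fin.mk_one, Fin.isValue]
  · linear_combination Y 0 0 * b - Y 0 1 * a
  · linear_combination Y 0 0 * d - Y 0 1 * c
  · linear_combination Y 1 0 * b - Y 1 1 * a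
  · linear_combination Y 1 0 * d - Y 1 1 * c

theorem frame_form {g : GL (Fin 2) F} {J Y : M2 F} {l : F} (hg : g.1ᴴ * g.1 = J)
    (hY : Yᴴ * Y = l • 1) : ((g⁻¹).1 * Y * g.1)ᴴ * J * ((g⁻¹).1 * Y * g.1) = l • J := by
  have e : ((g⁻¹).1)ᴴ * g.1ᴴ = 1 := by rw [← conjTranspose_mul, Units.mul_inv, conjTranspose_one]
  rw [← hg, conjTranspose_mul, conjTranspose_mul]
  calc g.1ᴴ * (Yᴴ * (g⁻¹).1ᴴ) * (g.1ᴴ * g.1) * ((g⁻¹).1 * Y * g.1)
      = g.1ᴴ * (Yᴴ * (((g⁻¹).1ᴴ * g.1ᴴ) * (g.1 * (g⁻¹).1)) * Y) * g.1 := by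
        simp only [Matrix.mul_assoc]
    _ = _ := by rw [e, Units.mul_inv, Matrix.mul_one, Matrix.mul_one, hY]; simp

theorem j_ne {g : GL (Fin 2) F} {j : F} (hg : g.1ᴴ * g.1 = !![0, j; -j, 0]) : j ≠ 0 := by
  rintro rfl
  have := congrArg det hg
  rw [det_mul, det_conjTranspose, det_fin_two_of] at this
  simp [g.det_ne_zero] at this

theorem lift0 {Y : M2 F} (h : ∀ i k, star (Y i k) = Y i k) (hd : Y.det ≠ 0) :
    ∃ y : GL (Fin 2) (F0 F), y.1.map (F0 F).subtype = Y := by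
  let y : Matrix (Fin 2) (Fin 2) (F0 F) := of fun i k => ⟨Y i k, h i k⟩
  have e : y.map (F0 F).subtype = Y := rfl
  refine ⟨GeneralLinearGroup.mkOfDetNeZero y fun h0 => hd ?_, e⟩
  rw [← e, ← RingHom.mapMatrix_apply, ← RingHom.map_det, h0, map_zero]

theorem su_of_roots {X : Subgroup (GL (Fin 2) F)} {g : GL (Fin 2) F} {j : F}
    (hg : g.1ᴴ * g.1 = !![0, j; -j, 0])
    (hu : ∀ s : F, star s = s → InM X (g.1 * !![1, s; 0, 1] * (g⁻¹).1))
    (hl : ∀ s : F, star s = s → InM X (g.1 * !![1, 0; s, 1] * (g⁻¹).1)) : SUin X := by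
  intro Y h1 h2
  have hX : SLin (X.comap (ψ0 g)) := slin_of
    (fun s => ⟨mat 1 s 0 1 (by simp), (inM_iff (K := X) (k := ψ0 g (mat 1 s 0 1 (by simp)))).1 ((hu s s.2).congr (by
      rw [ψ0_val]; congr 2; ext i k; fin_cases i <;> fin_cases k <;> simp)), rfl⟩)
    (fun s => ⟨mat 1 0 s 1 (by simp), (inM_iff (K := X) (k := ψ0 g (mat 1 0 s 1 (by simp)))).1 ((hl s s.2).congr (by
      rw [ψ0_val]; congr 2; ext i k; fin_cases i <;> fin_cases k <;> simp)), rfl⟩)
  have hd : ((g⁻¹).1 * Y * g.1).det = 1 := by rw [det_units_conj', h2]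
  obtain ⟨y, hy⟩ := lift0 (Y := (g⁻¹).1 * Y * g.1) (fun i k => by
    have := real_of (l := 1) (j_ne hg) (frame_form hg (by simpa using h1)) i k
    rwa [hd, mul_one, one_mul] at this) (by rw [hd]; exact one_ne_zero)
  obtain ⟨y', hy', e⟩ := hX y.1 ((F0 F).subtype.injective (by
    rw [RingHom.map_det, RingHom.mapMatrix_apply, hy, hd, map_one]))
  refine ⟨_, hy', ?_⟩
  rw [ψ0_val, e, hy]
  simp [Matrix.mul_assoc]

variable [Fintype F] [NStar F]

theorem exists_hyp (F : Type*) [Field F] [StarRing F] [Fintype F] [NStar F] :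
    ∃ (g : GL (Fin 2) F) (j : F), g.1ᴴ * g.1 = !![0, j; -j, 0] := by
  obtain ⟨t, ht⟩ := exists_norm (t := (-1 : F)) (by simp)
  obtain ⟨z, hz, z1⟩ := exists_norm_one_ne_one F
  have t0 : t ≠ 0 := by rintro rfl; simp at ht
  have z2 : 1 - z ≠ 0 := sub_ne_zero.2 z1.symm
  have z3 : 1 - star z ≠ 0 := by simpa using star_ne_zero' z2
  refine ⟨mat 1 (del F / (1 - z)) t (del F / (1 - z) * t * z) (by
    have := del_ne (F := F)
    rw [show 1 * (del F / (1 - z) * t * z) - del F / (1 - z) * t = -(del F * t) by field_simp; ring]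
    simp [this, t0]), del F, ?_⟩
  ext i k; fin_cases i <;> fin_cases k <;> simp [Matrix.mul_apply, Fin.sum_univ_succ]
  · linear_combination ht
  · field_simp; linear_combination del F * z * ht
  · field_simp; linear_combination (-del F * star z) * ht
  · field_simp; linear_combination (-(del F) ^ 2 * z * star z) * ht + (del F) ^ 2 * hz

theorem hilbert {e : F} (h : e * star e = 1) : ∃ c : F, c ≠ 0 ∧ star c = e * c := by
  by_cases h1 : 1 + star e = 0
  · exact ⟨del F, del_ne, by rw [star_del]; linear_combination (-del F * e) * h1 + del F * h⟩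
  · exact ⟨1 + star e, h1, by simp; linear_combination -h⟩

theorem su_of_normal {J : Subgroup (GL (Fin 2) F)} {l : F} (hl : l ≠ 0) (hl4 : l ^ 4 ≠ 1)
    (hl0 : star l = l) (hS : Sim J)
    (hJ : ∀ g g' y : M2 F, gᴴ * g = 1 → g.det = 1 → g * g' = 1 → InM J y → InM J (g * y * g'))
    {y : M2 F} (hy : InM J y) (hn : ¬ H7.IsScal y) : SUin J := by
  obtain ⟨g, j, hg⟩ := exists_hyp F
  obtain ⟨y, hyJ, rfl⟩ := hy
  obtain ⟨m, hm⟩ := hS y hyJ
  have hr := real_of (j_ne hg) (frame_form hg hm)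
  set Y := (g⁻¹).1 * y.1 * g.1 with hY
  have hd : Y.det ≠ 0 := by rw [hY, det_units_conj']; exact y.det_ne_zero
  obtain ⟨i, k, h0⟩ : ∃ i k, Y i k ≠ 0 := by
    by_contra! h0
    exact hd (by rw [show Y = 0 from Matrix.ext h0, det_zero])
  have m0 : m ≠ 0 := by
    rintro rfl
    exact mul_ne_zero (star_ne_zero' h0) hd (by simpa using hr i k)
  obtain ⟨c, c0, hc⟩ := hilbert (e := Y.det / m) (by
    have h1 := hr i k
    have h2 := congrArg star h1
    rw [star_mul', star_mul', star_star] at h2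
    have := star_ne_zero' m0
    rw [star_div₀]
    field_simp
    apply mul_left_cancel₀ h0
    linear_combination Y.det * h2 + star m * h1)
  obtain ⟨y0, hy0⟩ := lift0 (Y := c • Y) (fun i k => by
    simp only [Matrix.smul_apply, smul_eq_mul, star_mul', hc]
    field_simp
    linear_combination hr i k) (by simp [c0, hd])
  have hX := slin_of_normal (J := PBs (ψ0 g) J) (l := ⟨l, hl0⟩) (fun e => hl (congrArg Subtype.val e))
    (fun e => hl4 (congrArg Subtype.val e)) (by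
      rintro G G' _ hG hG' ⟨z, ⟨d, hz⟩, rfl⟩
      let G1 : GL (Fin 2) (F0 F) := GeneralLinearGroup.mkOfDetNeZero G (by simp [hG])
      have e1 : G1.1 = G := rfl
      refine ⟨G1 * z * G1⁻¹, ⟨d, (hJ (ψ0 g G1).1 (ψ0 g G1⁻¹).1 _ ?_ ?_ ?_ hz).congr ?_⟩, ?_⟩
      · have a : (G.map (F0 F).subtype)ᴴ * !![0, j; -j, 0] * G.map (F0 F).subtype = !![0, j; -j, 0] := by
          have := congrArg (F0 F).subtype hG
          rw [det_fin_two] at this
          simp at this
          ext i k; fin_cases i <;> fin_cases k <;> simp [Matrix.mul_apply, Fin.sum_univ_succ]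
          · ring
          · linear_combination j * this
          · linear_combination (-j) * this
          · ring
        have e : ((g⁻¹).1)ᴴ * g.1ᴴ = 1 := by rw [← conjTranspose_mul, Units.mul_inv, conjTranspose_one]
        rw [ψ0_val, e1, conjTranspose_mul, conjTranspose_mul]
        calc (g⁻¹).1ᴴ * ((G.map (F0 F).subtype)ᴴ * g.1ᴴ) * (g.1 * G.map (F0 F).subtype * (g⁻¹).1)
            = (g⁻¹).1ᴴ * ((G.map (F0 F).subtype)ᴴ * (g.1ᴴ * g.1) * G.map (F0 F).subtype) * (g⁻¹).1 := by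
              simp only [Matrix.mul_assoc]
          _ = _ := by rw [hg, a, ← hg, ← Matrix.mul_assoc, e, Matrix.one_mul, Units.mul_inv]
      · rw [ψ0_val, det_units_conj, e1, ← RingHom.mapMatrix_apply, ← RingHom.map_det, hG, map_one]
      · rw [map_inv, Units.mul_inv]
      · rw [map_mul, map_mul, Units.val_mul, Units.val_mul, mul_smul_comm, smul_mul_assoc]
      · rw [Units.val_mul, Units.val_mul, Units.inv_eq_of_mul_eq_one_right (e1 ▸ hG'), e1])
    (y := y0.1) ⟨y0, ⟨c⁻¹, (InM.of hyJ).congr (by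
      rw [ψ0_val, hy0, hY]; simp [Matrix.mul_assoc, smul_smul, c0])⟩, rfl⟩ (by
      rintro ⟨a, ha⟩
      refine hn ⟨c⁻¹ * a, ?_⟩
      have : y.1 = g.1 * (c⁻¹ • (c • Y)) * (g⁻¹).1 := by
        rw [hY]; simp [Matrix.mul_assoc, smul_smul, c0]
      rw [this, ← hy0, ha]
      have : (a • (1 : Matrix (Fin 2) (Fin 2) (F0 F))).map (F0 F).subtype = (a : F) • 1 := by
        ext i k; fin_cases i <;> fin_cases k <;> simp
      rw [this]; simp [smul_smul])
  have key : ∀ (Z : Matrix (Fin 2) (Fin 2) (F0 F)) (N : M2 F), Z.det = 1 → N * N = 0 →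
      Z.map (F0 F).subtype = 1 + N → InM J (g.1 * (1 + N) * (g⁻¹).1) := fun Z N h1 h2 h3 => by
    obtain ⟨z, ⟨d, hz⟩, rfl⟩ := hX Z h1
    rw [ψ0_val, h3] at hz
    have e : g.1 * (1 + N) * (g⁻¹).1 = 1 + g.1 * N * (g⁻¹).1 := by simp [mul_add, add_mul]
    rw [e] at hz ⊢
    refine inM_unip ?_ hz
    calc g.1 * N * (g⁻¹).1 * (g.1 * N * (g⁻¹).1) = g.1 * (N * ((g⁻¹).1 * g.1) * N) * (g⁻¹).1 := by
          simp only [Matrix.mul_assoc]
      _ = 0 := by simp [h2]
  refine su_of_roots hg (fun s hs => ?_) (fun s hs => ?_)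
  · refine (key !![1, ⟨s, hs⟩; 0, 1] !![0, s; 0, 0] (by simp [det_fin_two]) (by mc) ?_).congr ?_
    · ext i k; fin_cases i <;> fin_cases k <;> simp
    · congr 2; mc
  · refine (key !![1, 0; ⟨s, hs⟩, 1] !![0, 0; s, 0] (by simp [det_fin_two]) (by mc) ?_).congr ?_
    · ext i k; fin_cases i <;> fin_cases k <;> simp
    · congr 2; mc

theorem dick {X : Subgroup (GL (Fin 2) F)} (hS : Sim X) {α β : F} (hα : α ≠ 0) (hβ : β ≠ 0)
    (h5 : α ^ 5 = β ^ 5) (hne : α ≠ β) (ha : InM X !![α, 0; 0, β])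
    (hk : ∀ k : Subfield F, (α + β) ^ 2 / (α * β) ∈ k → ∀ t : F, star t = t → t ∈ k)
    (hs : ∃ s ∈ X, s 0 0 = 0 ∧ s 1 1 = 0)
    (hf : ∃ f ∈ X, (f 0 0 ≠ 0 ∨ f 1 1 ≠ 0) ∧ (f 0 1 ≠ 0 ∨ f 1 0 ≠ 0)) : SUin X ∨ Ex5 X := by
  obtain ⟨p, hp⟩ := CharP.exists F
  haveI : Fact p.Prime := ⟨CharP.char_is_prime F p⟩
  obtain ⟨a, haX, ha⟩ := ha
  obtain ⟨s, hsX, s0, s1⟩ := hs
  obtain ⟨f, hfX, f0, f1⟩ := hf
  have hne2 : α * α ≠ β * β := fun e => hne (by
    have : α ^ 5 = α * (α * α) ^ 2 := by ring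
    have h' : β ^ 5 = β * (β * β) ^ 2 := by ring
    rw [this, h', e] at h5
    exact mul_right_cancel₀ (pow_ne_zero 2 (mul_ne_zero hβ hβ)) h5)
  have ha2 : (a * a).1 = !![α * α, 0; 0, β * β] := by
    rw [Units.val_mul, ha]; ext i j; fin_cases i <;> fin_cases j <;> simp [mul_apply, Fin.sum_univ_two]
  have hsd := s.det_ne_zero
  rw [det_fin_two, s0] at hsd
  have s01 : s 0 1 ≠ 0 := fun e => hsd (by rw [e]; ring)
  have s10 : s 1 0 ≠ 0 := fun e => hsd (by rw [e]; ring)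
  have hfd := f.det_ne_zero
  rw [det_fin_two] at hfd
  have pair : ∀ {K : Type _} [Field K] [Algebra F K] (x y : OnePoint K),
      X.map mk ≤ pairStab F x y → (x = ∞ ∨ x = ((0 : K) : OnePoint K)) ∧
        (y = ∞ ∨ y = ((0 : K) : OnePoint K)) := by
    intro K _ _ x y hH
    have h1 : mk (a * a) • x = x ∧ mk (a * a) • y = y := by
      rw [map_mul, mul_smul, mul_smul]
      rcases hH ⟨a, haX, rfl⟩ with ⟨e1, e2⟩ | ⟨e1, e2⟩
      · rw [e1, e1, e2, e2]; exact ⟨rfl, rfl⟩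
      · rw [e1, e2, e1]; exact ⟨rfl, rfl⟩
    exact ⟨fix_diag ha2 hne2 h1.1, fix_diag ha2 hne2 h1.2⟩
  rcases H3.dickson2 p (X.map mk) with ⟨x, hx⟩ | ⟨x, y, hxy, hx⟩ | ⟨t, a', b', ht, hx⟩ | hx | ⟨k, γ, -, hx⟩
  · exfalso
    have h1 : mk s • x = x := hx ⟨s, hsX, rfl⟩
    rcases fix_diag ha hne (hx ⟨a, haX, rfl⟩ : mk a • x = x) with rfl | rfl
    · exact s10 (smul_infty_eq_infty.1 h1)
    · rw [smul_coe_eq_coe] at h1
      exact s01 (by simpa using h1)
  · exfalso
    have hp := pair x y hx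
    have h1 := hx ⟨f, hfX, rfl⟩
    have key : (mk f • (∞ : OnePoint F) = ∞ ∧ mk f • ((0 : F) : OnePoint F) = ((0 : F) : OnePoint F)) ∨
        (mk f • (∞ : OnePoint F) = ((0 : F) : OnePoint F) ∧ mk f • ((0 : F) : OnePoint F) = ∞) := by
      obtain ⟨rfl | rfl, rfl | rfl⟩ := hp
      · exact absurd rfl hxy
      · exact h1
      · exact h1.imp And.symm And.symm
      · exact absurd rfl hxy
    rcases key with ⟨e1, e2⟩ | ⟨e1, e2⟩
    · rw [smul_infty_eq_infty] at e1
      rw [smul_coe_eq_coe] at e2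
      exact f1.elim (fun e => e (by simpa using e2)) (fun e => e e1)
    · rw [smul_infty_eq_coe] at e1
      rw [smul_coe_eq_infty] at e2
      exact f0.elim (fun e => e (by simpa using e1)) (fun e => e (by simpa using e2))
  · exfalso
    rcases (pair _ _ hx).1 with e | e
    · exact coe_ne_infty _ e
    · exact ht.not_mem 0 (by rw [map_zero]; exact (coe_eq_coe.1 e).symm)
  · right
    have ho : orderOf (⟨mk a, a, haX, rfl⟩ : X.map mk) = 5 := by
      haveI : Fact (Nat.Prime 5) := ⟨by norm_num⟩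
      apply orderOf_eq_prime
      · apply Subtype.ext
        show mk a ^ 5 = 1
        rw [← map_pow, mk_eq_one_iff]
        simp only [Units.val_pow_eq_pow_val, ha]
        have : (!![α, 0; 0, β] : Matrix (Fin 2) (Fin 2) F) ^ 5 = !![α ^ 5, 0; 0, β ^ 5] := by
          ext i j; fin_cases i <;> fin_cases j <;> simp [pow_succ, mul_apply, Fin.sum_univ_two]
        rw [this]; simp [h5]
      · intro e
        have e' : mk a = 1 := congrArg Subtype.val e
        rw [mk_eq_one_iff] at e'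
        simp only [ha] at e'
        exact hne (by simpa using e'.2.2)
    have hd := ho ▸ orderOf_dvd_natCard (⟨mk a, a, haX, rfl⟩ : X.map mk)
    obtain ⟨-, -, ⟨e, -⟩ | ⟨e, -⟩ | ⟨e1, e2, -, e3⟩⟩ := hx
    · rw [e] at hd; norm_num at hd
    · rw [e] at hd; norm_num at hd
    · exact ⟨e1, e2, e3⟩
  · left
    induction γ using ProjGenLinGroup.induction_on with | mk g =>
    have hL : ∀ (y : GL (Fin 2) F) (N : M2 F), y.1 = 1 + N → N * N = 0 → mk y ∈ PS k →
        InM X (g.1 * y.1 * (g⁻¹).1) := fun y N h1 h2 h3 => by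
      have : mk (g * y * g⁻¹) ∈ X.map mk := by
        have e : (mk g)⁻¹ * mk (g * y * g⁻¹) * mk g = mk y := by simp [mul_assoc]
        rcases hx with hx | hx <;> rw [hx, mem_cj, e]
        · exact h3
        · exact PS_le_PG _ h3
      obtain ⟨x, hx, e⟩ := this
      obtain ⟨c, hc, e⟩ := exists_smul_of_mk_eq e.symm
      have e1 : x.1 = c • (g.1 * y.1 * (g⁻¹).1) := by ext i j; simp [e]
      have e2 : g.1 * y.1 * (g⁻¹).1 = 1 + g.1 * N * (g⁻¹).1 := by simp [h1, mul_add, add_mul]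
      rw [e2] at e1 ⊢
      refine inM_unip ?_ ((InM.of hx).congr e1)
      calc g.1 * N * (g⁻¹).1 * (g.1 * N * (g⁻¹).1) = g.1 * (N * ((g⁻¹).1 * g.1) * N) * (g⁻¹).1 := by
            simp only [Matrix.mul_assoc]
        _ = 0 := by simp [h2]
    have hu : ∀ s ∈ k, InM X (g.1 * !![1, s; 0, 1] * (g⁻¹).1) := fun s hs =>
      hL (mat 1 s 0 1 (by simp)) !![0, s; 0, 0] (by show !![1, s; 0, 1] = _; mc) (by mc)
        (mem_PS.2 ⟨_, rfl, fun i j => by fin_cases i <;> fin_cases j <;> simp [hs], 1, k.one_mem, by simp⟩)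
    have hl : ∀ s ∈ k, InM X (g.1 * !![1, 0; s, 1] * (g⁻¹).1) := fun s hs =>
      hL (mat 1 0 s 1 (by simp)) !![0, 0; s, 0] (by show !![1, 0; s, 1] = _; mc) (by mc)
        (mem_PS.2 ⟨_, rfl, fun i j => by fin_cases i <;> fin_cases j <;> simp [hs], 1, k.one_mem, by simp⟩)
    have hk' := hk k (by
      have : (mk g)⁻¹ * mk a * mk g ∈ PG k := by
        have : mk a ∈ X.map mk := ⟨a, haX, rfl⟩
        rcases hx with hx | hx <;> rw [hx, mem_cj] at this
        · exact PS_le_PG _ this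
        · exact this
      obtain ⟨y, hy, hyk⟩ := mem_PG.1 this
      rw [← map_inv, ← map_mul, ← map_mul] at hy
      obtain ⟨c, hc, e⟩ := exists_smul_of_mk_eq hy
      have e1 : (g⁻¹).1 * a.1 * g.1 = c • y.1 := by ext i j; simpa using e i j
      have e2 := congrArg det e1
      have e3 := congrArg trace e1
      rw [det_units_conj', ha, det_smul, det_fin_two_of, det_fin_two] at e2
      rw [trace_units_conj', ha, trace_smul, trace_fin_two_of, trace_fin_two] at e3
      have e4 := y.det_ne_zero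
      rw [det_fin_two] at e4
      have : (α + β) ^ 2 / (α * β) = (y 0 0 + y 1 1) ^ 2 / (y 0 0 * y 1 1 - y 0 1 * y 1 0) := by
        simp only [Fintype.card_fin, smul_eq_mul, mul_zero, sub_zero] at e2 e3
        rw [e2, e3]; field_simp
      rw [this]
      exact k.div_mem (k.pow_mem (k.add_mem (hyk _ _) (hyk _ _)) 2)
        (k.sub_mem (k.mul_mem (hyk _ _) (hyk _ _)) (k.mul_mem (hyk _ _) (hyk _ _))))
    have hf : ∀ E : M2 F, InM X (g.1 * E * (g⁻¹).1) → ∃ l : F, Eᴴ * (g.1ᴴ * g.1) * E = l • (g.1ᴴ * g.1) := by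
      rintro E ⟨x, hx, e⟩
      obtain ⟨l, hl⟩ := hS x hx
      have := frame_form (g := g) rfl hl
      rw [e] at this
      exact ⟨l, by simpa [Matrix.mul_assoc] using this⟩
    obtain ⟨l, h1⟩ := hf _ (hu 1 k.one_mem)
    obtain ⟨m, h2⟩ := hf _ (hl 1 k.one_mem)
    have hd : (g.1ᴴ * g.1).det ≠ 0 := by simp [det_conjTranspose, g.det_ne_zero]
    obtain ⟨J, hJ⟩ : ∃ J, g.1ᴴ * g.1 = J := ⟨_, rfl⟩
    rw [hJ] at h1 h2 hd
    have a0 := congrFun (congrFun h1 0) 0
    have a1 := congrFun (congrFun h1 0) 1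
    have a2 := congrFun (congrFun h1 1) 1
    have b0 := congrFun (congrFun h2 1) 1
    have b1 := congrFun (congrFun h2 1) 0
    simp [Matrix.mul_apply, Fin.sum_univ_succ] at a0 a1 a2 b0 b1
    have j0 : J 0 0 = 0 := by
      by_contra h0
      have : l = 1 := mul_right_cancel₀ h0 (by linear_combination -a0)
      exact h0 (by rw [this] at a1; linear_combination a1)
    have j1 : J 1 1 = 0 := by
      by_contra h0
      have : m = 1 := mul_right_cancel₀ h0 (by linear_combination -b0)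
      exact h0 (by rw [this] at b1; linear_combination b1)
    refine su_of_roots (j := J 0 1) (hJ.trans ?_) (fun s hs => hu s (hk' s hs)) fun s hs => hl s (hk' s hs)
    ext i j; fin_cases i <;> fin_cases j <;> simp [j0, j1]
    rw [j0, j1] at a2
    linear_combination a2

end Cfsg.Agent.H5.C5U
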